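import Mathlib
import Cfsg.Agent.Lib.Helper86.SLUni

set_option autoImplicit false
set_option linter.style.haveILetI false
set_option linter.unusedSectionVars false
set_option linter.dupNamespace false
set_option linter.unusedVariables false

/-! # Maximal parabolic subgroups of `SL_n(K)` and their unipotent radicals

`parSL k` is the stabilizer of the span of the first `k` basis vectors, `radSL k` its unipotent
radical: the radical is normalized by the parabolic and is self-centralizing modulo scalars.
Also: the upper triangular group is generated by the unitriangular group and the rank one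
diagonal elements `diag2n` at adjacent positions. -/

namespace Cfsg.Agent.Lib.Helper86.SLn

open Matrix

variable {n : ℕ} {K : Type*} [Field K]

/-- the stabilizer of the span of the first `k` basis vectors -/
def parSL (n : ℕ) (K : Type*) [Field K] (k : ℕ) : Subgroup (SLn n K) where
  carrier := {g | (g : Matrix (Fin n) (Fin n) K).BlockTriangular
    (fun i : Fin n => if i.val < k then (0 : ℕ) else 1)}
  mul_mem' := fun {a b} ha hb => by
    show ((a * b : SLn n K) : Matrix (Fin n) (Fin n) K).BlockTriangular _
    rw [Matrix.SpecialLinearGroup.coe_mul]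
    exact ha.mul hb
  one_mem' := by
    show ((1 : SLn n K) : Matrix (Fin n) (Fin n) K).BlockTriangular _
    rw [Matrix.SpecialLinearGroup.coe_one]
    exact Matrix.blockTriangular_one
  inv_mem' := fun {a} ha => by
    show ((a⁻¹ : SLn n K) : Matrix (Fin n) (Fin n) K).BlockTriangular _
    rw [coe_inv_eq]
    haveI : Invertible (a : Matrix (Fin n) (Fin n) K) :=
      Matrix.invertibleOfIsUnitDet _ (by rw [a.det_coe]; exact isUnit_one)
    exact Matrix.blockTriangular_inv_of_blockTriangular ha

theorem mem_parSL {k : ℕ} {g : SLn n K} :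
    g ∈ parSL n K k ↔ ∀ i j : Fin n, k ≤ i.val → j.val < k → g.1 i j = 0 := by
  constructor
  · intro h i j hi hj
    apply h
    show (if j.val < k then (0 : ℕ) else 1) < (if i.val < k then (0 : ℕ) else 1)
    rw [if_pos hj, if_neg (by omega)]
    exact Nat.zero_lt_one
  · intro h i j hij
    have hij' : (if j.val < k then (0 : ℕ) else 1) < (if i.val < k then (0 : ℕ) else 1) := hij
    by_cases hj : j.val < k
    · by_cases hi : i.val < k
      · rw [if_pos hj, if_pos hi] at hij'
        exact absurd hij' (lt_irrefl _)
      · exact h i j (by omega) hj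
    · rw [if_neg hj] at hij'
      exfalso
      split_ifs at hij' <;> omega

/-- the unipotent radical of `parSL k` -/
def radSL (n : ℕ) (K : Type*) [Field K] (k : ℕ) : Subgroup (SLn n K) where
  carrier := {g | (∀ r : Fin n → K, (∀ i : Fin n, i.val < k → r i = 0) → r ᵥ* g.1 = r) ∧
    (∀ v : Fin n → K, (∀ i : Fin n, k ≤ i.val → v i = 0) → g.1 *ᵥ v = v)}
  mul_mem' := fun {a b} ha hb => by
    constructor
    · intro r hr
      rw [Matrix.SpecialLinearGroup.coe_mul, ← Matrix.vecMul_vecMul, ha.1 r hr, hb.1 r hr]
    · intro v hv
      rw [Matrix.SpecialLinearGroup.coe_mul, ← Matrix.mulVec_mulVec, hb.2 v hv, ha.2 v hv]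
  one_mem' := by
    constructor
    · intro r hr
      rw [Matrix.SpecialLinearGroup.coe_one, Matrix.vecMul_one]
    · intro v hv
      rw [Matrix.SpecialLinearGroup.coe_one, Matrix.one_mulVec]
  inv_mem' := fun {a} ha => by
    constructor
    · intro r hr
      conv_lhs => rw [← ha.1 r hr]
      rw [Matrix.vecMul_vecMul, ← Matrix.SpecialLinearGroup.coe_mul, mul_inv_cancel,
        Matrix.SpecialLinearGroup.coe_one, Matrix.vecMul_one]
    · intro v hv
      conv_lhs => rw [← ha.2 v hv]
      rw [Matrix.mulVec_mulVec, ← Matrix.SpecialLinearGroup.coe_mul, inv_mul_cancel,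
        Matrix.SpecialLinearGroup.coe_one, Matrix.one_mulVec]

theorem mem_radSL_iff {k : ℕ} {g : SLn n K} :
    g ∈ radSL n K k ↔ ∀ i j : Fin n, (k ≤ i.val ∨ j.val < k) →
      g.1 i j = (1 : Matrix (Fin n) (Fin n) K) i j := by
  constructor
  · rintro ⟨h1, h2⟩ i j hij
    rcases hij with hi | hj
    · have := h1 (Pi.single i 1) (by
        intro i' hi'
        rw [Pi.single_apply, if_neg]
        intro h; subst h; omega)
      rw [Matrix.single_one_vecMul] at this
      have h3 : g.1 i j = (Pi.single i (1 : K) : Fin n → K) j := congrFun this j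
      rw [h3, Pi.single_apply, Matrix.one_apply]
      by_cases hij' : i = j
      · rw [if_pos hij', if_pos hij'.symm]
      · rw [if_neg hij', if_neg (Ne.symm hij')]
    · have := h2 (Pi.single j 1) (by
        intro i' hi'
        rw [Pi.single_apply, if_neg]
        intro h; subst h; omega)
      rw [Matrix.mulVec_single_one] at this
      have h3 : g.1 i j = (Pi.single j (1 : K) : Fin n → K) i := congrFun this i
      rw [h3, Pi.single_apply, Matrix.one_apply]
  · intro h
    constructor
    · intro r hr
      conv_rhs => rw [← Matrix.vecMul_one r]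
      funext j
      show ∑ i, r i * g.1 i j = ∑ i, r i * (1 : Matrix (Fin n) (Fin n) K) i j
      apply Finset.sum_congr rfl
      intro i _
      by_cases hi : i.val < k
      · rw [hr i hi, zero_mul, zero_mul]
      · rw [h i j (Or.inl (by omega))]
    · intro v hv
      conv_rhs => rw [← Matrix.one_mulVec v]
      funext i
      show ∑ j, g.1 i j * v j = ∑ j, (1 : Matrix (Fin n) (Fin n) K) i j * v j
      apply Finset.sum_congr rfl
      intro j _
      by_cases hj : j.val < k
      · rw [h i j (Or.inr hj)]
      · rw [hv j (by omega), mul_zero, mul_zero]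

theorem radSL_le_uniSL (k : ℕ) : radSL n K k ≤ uniSL n K := by
  intro g hg
  rw [mem_radSL_iff] at hg
  rw [mem_uniSL]
  constructor
  · intro i j hji
    rw [hg i j (by rw [Fin.lt_def] at hji; omega), Matrix.one_apply_ne (ne_of_gt hji)]
  · intro i
    rw [hg i i (by omega), Matrix.one_apply_eq]

theorem uniSL_le_parSL (k : ℕ) : uniSL n K ≤ parSL n K k := by
  intro g hg
  rw [mem_parSL]
  intro i j hi hj
  exact hg.1 (show j < i by rw [Fin.lt_def]; omega)

theorem transvection_mem_parSL {k : ℕ} {i j : Fin n} (hij : i ≠ j)
    (h : ¬ (k ≤ i.val ∧ j.val < k)) (c : K) :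
    Matrix.SpecialLinearGroup.transvection hij c ∈ parSL n K k := by
  rw [mem_parSL]
  intro a b ha hb
  rw [Matrix.SpecialLinearGroup.transvection_coe, Matrix.add_apply,
    Matrix.one_apply_ne (by intro hab; subst hab; omega), zero_add, Matrix.single_apply, if_neg]
  rintro ⟨rfl, rfl⟩
  exact h ⟨ha, hb⟩

theorem transvection_mem_radSL {k : ℕ} {i j : Fin n} (hi : i.val < k) (hj : k ≤ j.val)
    (hij : i ≠ j) (c : K) :
    Matrix.SpecialLinearGroup.transvection hij c ∈ radSL n K k := by
  rw [mem_radSL_iff]
  intro a b hab
  rw [Matrix.SpecialLinearGroup.transvection_coe, Matrix.add_apply, Matrix.single_apply, if_neg,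
    add_zero]
  rintro ⟨rfl, rfl⟩
  omega

theorem conj_mem_radSL {k : ℕ} {h a : SLn n K} (hh : h ∈ parSL n K k) (ha : a ∈ radSL n K k) :
    h * a * h⁻¹ ∈ radSL n K k := by
  have hh' := (parSL n K k).inv_mem hh
  rw [mem_parSL] at hh hh'
  constructor
  · intro r hr
    have h1 : ∀ j : Fin n, j.val < k → (r ᵥ* h.1) j = 0 := by
      intro j hj
      show ∑ i, r i * h.1 i j = 0
      apply Finset.sum_eq_zero
      intro i _
      by_cases hi : i.val < k
      · rw [hr i hi, zero_mul]
      · rw [hh i j (by omega) hj, mul_zero]
    rw [Matrix.SpecialLinearGroup.coe_mul, Matrix.SpecialLinearGroup.coe_mul,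
      ← Matrix.vecMul_vecMul, ← Matrix.vecMul_vecMul, ha.1 _ h1, Matrix.vecMul_vecMul,
      ← Matrix.SpecialLinearGroup.coe_mul, mul_inv_cancel, Matrix.SpecialLinearGroup.coe_one,
      Matrix.vecMul_one]
  · intro v hv
    have h1 : ∀ i : Fin n, k ≤ i.val → ((h⁻¹ : SLn n K).1 *ᵥ v) i = 0 := by
      intro i hi
      show ∑ j, (h⁻¹ : SLn n K).1 i j * v j = 0
      apply Finset.sum_eq_zero
      intro j _
      by_cases hj : j.val < k
      · rw [hh' i j hi hj, zero_mul]
      · rw [hv j (by omega), mul_zero]
    rw [Matrix.SpecialLinearGroup.coe_mul, Matrix.SpecialLinearGroup.coe_mul,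
      ← Matrix.mulVec_mulVec, ← Matrix.mulVec_mulVec, ha.2 _ h1, Matrix.mulVec_mulVec,
      ← Matrix.SpecialLinearGroup.coe_mul, mul_inv_cancel, Matrix.SpecialLinearGroup.coe_one,
      Matrix.one_mulVec]

theorem parSL_le_normalizer (k : ℕ) :
    parSL n K k ≤ Subgroup.normalizer ((radSL n K k : Subgroup (SLn n K)) : Set (SLn n K)) := by
  intro h hh
  rw [Subgroup.mem_normalizer_iff]
  intro a
  constructor
  · exact conj_mem_radSL hh
  · intro ha
    have := conj_mem_radSL (inv_mem hh) ha
    have e : h⁻¹ * (h * a * h⁻¹) * h⁻¹⁻¹ = a := by group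
    rwa [e] at this

/-- the centralizer of the radical is the radical, up to scalars -/
theorem centralizer_radSL {k : ℕ} (hk : 0 < k) (hkn : k < n) (g : SLn n K)
    (hg : ∀ a ∈ radSL n K k, g * a = a * g) :
    ∃ z ∈ Subgroup.center (SLn n K), z * g ∈ radSL n K k := by
  have h0n : 0 < n := by omega
  set i₀ : Fin n := ⟨0, h0n⟩ with hi₀
  set j₀ : Fin n := ⟨k, hkn⟩ with hj₀
  -- the commutation relations with the root elements
  have hcomm : ∀ (i j : Fin n) (hi : i.val < k) (hj : k ≤ j.val) (a b : Fin n),
      g.1 a b + (if b = j then g.1 a i else 0) = g.1 a b + (if a = i then g.1 j b else 0) := by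
    intro i j hi hj a b
    have hij : i ≠ j := by intro h; subst h; omega
    have h1 := hg _ (transvection_mem_radSL hi hj hij (1 : K))
    have h2 := congrArg (fun M : SLn n K => M.1 a b) h1
    simp only [Matrix.SpecialLinearGroup.coe_mul] at h2
    have e1 : (g.1 * (Matrix.SpecialLinearGroup.transvection hij (1 : K) : SLn n K).1) a b
        = g.1 a b + (if b = j then g.1 a i else 0) := by
      by_cases hb : b = j
      · rw [if_pos hb, hb]
        have := Matrix.mul_transvection_apply_same (i := i) (j := j) a (1 : K) g.1
        rw [one_mul] at this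
        exact this
      · rw [if_neg hb, add_zero]
        exact Matrix.mul_transvection_apply_of_ne _ _ _ _ hb _ _
    have e2 : ((Matrix.SpecialLinearGroup.transvection hij (1 : K) : SLn n K).1 * g.1) a b
        = g.1 a b + (if a = i then g.1 j b else 0) := by
      by_cases ha : a = i
      · rw [if_pos ha, ha]
        have := Matrix.transvection_mul_apply_same (i := i) (j := j) b (1 : K) g.1
        rw [one_mul] at this
        exact this
      · rw [if_neg ha, add_zero]
        exact Matrix.transvection_mul_apply_of_ne _ _ _ _ ha _ _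
    rw [e1, e2] at h2
    exact h2
  have hcol : ∀ (i : Fin n), i.val < k → ∀ a : Fin n, a ≠ i → g.1 a i = 0 := by
    intro i hi a hai
    have := hcomm i j₀ hi le_rfl a j₀
    rw [if_pos rfl, if_neg hai, add_zero] at this
    exact add_eq_left.mp this
  have hrow : ∀ (j : Fin n), k ≤ j.val → ∀ b : Fin n, b ≠ j → g.1 j b = 0 := by
    intro j hj b hbj
    have := hcomm i₀ j hk hj i₀ b
    rw [if_neg hbj, if_pos rfl, add_zero] at this
    exact (left_eq_add.mp this)
  have hdiag : ∀ (i j : Fin n), i.val < k → k ≤ j.val → g.1 i i = g.1 j j := by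
    intro i j hi hj
    have := hcomm i j hi hj i j
    rw [if_pos rfl, if_pos rfl] at this
    exact add_left_cancel this
  set c : K := g.1 i₀ i₀ with hc
  have hdiag' : ∀ m : Fin n, g.1 m m = c := by
    intro m
    by_cases hm : m.val < k
    · rw [hdiag m j₀ hm le_rfl, hc, hdiag i₀ j₀ hk le_rfl]
    · rw [hc, hdiag i₀ m hk (by omega)]
  have hupper : g.1.BlockTriangular id := by
    intro a b hba
    have hba' : b < a := hba
    by_cases hb : b.val < k
    · exact hcol b hb a (ne_of_gt hba')
    · exact hrow a (by rw [Fin.lt_def] at hba'; omega) b (ne_of_lt hba')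
  have hdet : c ^ n = 1 := by
    have h1 := Matrix.det_of_isUpperTriangular hupper
    rw [g.det_coe] at h1
    rw [h1]
    rw [Finset.prod_congr rfl (fun m _ => hdiag' m), Finset.prod_const, Finset.card_univ,
      Fintype.card_fin]
  have hc0 : c ≠ 0 := by
    intro h
    rw [h, zero_pow (by omega)] at hdet
    exact zero_ne_one hdet
  have hdet' : (Matrix.diagonal (fun _ : Fin n => c⁻¹)).det = 1 := by
    rw [Matrix.det_diagonal, Finset.prod_const, Finset.card_univ, Fintype.card_fin, inv_pow, hdet,
      inv_one]
  obtain ⟨z, hz⟩ : ∃ z : SLn n K, z.1 = Matrix.diagonal (fun _ : Fin n => c⁻¹) :=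
    ⟨⟨Matrix.diagonal (fun _ : Fin n => c⁻¹), hdet'⟩, rfl⟩
  refine ⟨z, ?_, ?_⟩
  · refine Matrix.SpecialLinearGroup.mem_center_iff.2 ⟨c⁻¹, ?_, ?_⟩
    · rw [Fintype.card_fin, inv_pow, hdet, inv_one]
    · rw [hz]; rfl
  · rw [mem_radSL_iff]
    intro i j hij
    rw [Matrix.SpecialLinearGroup.coe_mul, hz, Matrix.diagonal_mul]
    by_cases hij' : i = j
    · subst hij'
      rw [hdiag' i, Matrix.one_apply_eq, inv_mul_cancel₀ hc0]
    · rw [Matrix.one_apply_ne hij']
      rcases hij with hi | hj
      · rw [hrow i hi j (Ne.symm hij'), mul_zero]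
      · rw [hcol j hj i hij', mul_zero]

/-! ### generation of the upper triangular group -/

/-- the generators of the upper triangular group: unitriangular elements and the adjacent
rank one diagonal elements -/
def upperGens (n : ℕ) (K : Type*) [Field K] : Set (SLn n K) :=
  {d | d ∈ uniSL n K ∨ ∃ (i j : Fin n) (hij : i ≠ j) (c : K) (hc : c ≠ 0), i.val + 1 = j.val ∧
    d = Matrix.SpecialLinearGroup.diag2n hij c hc}

theorem diag2n_mem_upperSL {i j : Fin n} (hij : i ≠ j) (c : K) (hc : c ≠ 0) :
    Matrix.SpecialLinearGroup.diag2n hij c hc ∈ upperSL n K := by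
  rw [mem_upperSL]
  intro a b hba
  rw [Matrix.SpecialLinearGroup.diag2n_coe, Matrix.diagonal_apply_ne _ (ne_of_gt hba)]

theorem upperSL_le_closure : upperSL n K ≤ Subgroup.closure (upperGens n K) := by
  have key : ∀ k : ℕ, ∀ b ∈ upperSL n K, (∀ j : Fin n, k < j.val → b.1 j j = 1) →
      b ∈ Subgroup.closure (upperGens n K) := by
    intro k
    induction k with
    | zero =>
      intro b hb h
      apply Subgroup.subset_closure
      left
      refine ⟨hb, fun i => ?_⟩
      by_cases hi : 0 < i.val
      · exact h i hi
      · have hi0 : i.val = 0 := by omega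
        have h1 := Matrix.det_of_isUpperTriangular hb
        rw [b.det_coe] at h1
        rw [Finset.prod_eq_single i] at h1
        · exact h1.symm
        · intro m _ hmi
          apply h m
          have : m.val ≠ i.val := fun h' => hmi (Fin.ext h')
          omega
        · intro h'; exact absurd (Finset.mem_univ i) h'
    | succ k ih =>
      intro b hb h
      by_cases hk : k + 1 < n
      · set i : Fin n := ⟨k, by omega⟩ with hi
        set j : Fin n := ⟨k + 1, hk⟩ with hj
        have hij : i ≠ j := by
          intro h'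
          have := congrArg Fin.val h'
          simp only [hi, hj] at this
          omega
        have hc : b.1 j j ≠ 0 := upper_diag_ne_zero hb j
        set d : SLn n K := Matrix.SpecialLinearGroup.diag2n hij (b.1 j j) hc with hd
        have hdU : d ∈ upperSL n K := diag2n_mem_upperSL hij _ hc
        have hdG : d ∈ Subgroup.closure (upperGens n K) := by
          apply Subgroup.subset_closure
          right
          exact ⟨i, j, hij, b.1 j j, hc, rfl, rfl⟩
        have hdb : d * b ∈ Subgroup.closure (upperGens n K) := by
          apply ih _ (mul_mem hdU hb)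
          intro m hm
          rw [upper_mul_diag hdU hb, hd, Matrix.SpecialLinearGroup.diag2n_coe,
            Matrix.diagonal_apply_eq]
          by_cases hmj : m = j
          · rw [hmj, if_neg (Ne.symm hij), if_pos rfl, inv_mul_cancel₀ hc]
          · have hmi : m ≠ i := by
              intro h'; rw [h'] at hm; simp only [hi] at hm; omega
            rw [if_neg hmi, if_neg hmj, one_mul]
            apply h m
            have : m.val ≠ k + 1 := fun h' => hmj (Fin.ext h')
            omega
        have : b = d⁻¹ * (d * b) := by group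
        rw [this]
        exact mul_mem (inv_mem hdG) hdb
      · apply ih b hb
        intro j hj
        exfalso
        have := j.2
        omega
  intro b hb
  exact key n b hb (fun j hj => by have := j.2; omega)

end Cfsg.Agent.Lib.Helper86.SLn
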