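import Mathlib
import Cfsg.Agent.Lib.Helper86.SLUni
import Cfsg.Agent.Lib.Helper43.Transvec
import Cfsg.Agent.Lib.Helper53.PGroups

set_option autoImplicit false
set_option linter.style.haveILetI false
set_option linter.unusedSectionVars false
set_option linter.dupNamespace false
set_option linter.unusedVariables false

/-! # Transvections in `SL_n(K)` and strongly closed subgroups of the unitriangular group

A nontrivial subgroup of the unitriangular group `U` of `SL_n(K)` (`n ≥ 3`, `K` finite of
characteristic `p`) that is strongly closed in `U` with respect to `SL_n(K)` is all of `U`. -/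

namespace Cfsg.Agent.Lib.Helper86.SLn

open Matrix

variable {n : ℕ} {K : Type*} [Field K]

/-- the general transvection `1 + a φᵀ` with `φ a = 0` -/
def tv (a φ : Fin n → K) (h : φ ⬝ᵥ a = 0) : SLn n K :=
  ⟨1 + vecMulVec a φ, by
    rw [vecMulVec_eq (ι := Unit), det_one_add_replicateCol_mul_replicateRow, h, add_zero]⟩

theorem tv_coe (a φ : Fin n → K) (h : φ ⬝ᵥ a = 0) :
    ((tv a φ h : SLn n K) : Matrix (Fin n) (Fin n) K) = 1 + vecMulVec a φ := rfl

theorem tv_apply (a φ : Fin n → K) (h : φ ⬝ᵥ a = 0) (i j : Fin n) :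
    (tv a φ h : SLn n K).1 i j = (1 : Matrix (Fin n) (Fin n) K) i j + a i * φ j := by
  rw [tv_coe, Matrix.add_apply, vecMulVec_apply]

/-- all transvections are conjugate in `SL_n`, `n ≥ 3` -/
theorem conj_tv (hn : 3 ≤ n) (a b φ ψ : Fin n → K) (ha : a ≠ 0) (hb : b ≠ 0) (hφ : φ ≠ 0)
    (hψ : ψ ≠ 0) (h1 : φ ⬝ᵥ a = 0) (h2 : ψ ⬝ᵥ b = 0) :
    ∃ g : SLn n K, g * tv a φ h1 * g⁻¹ = tv b ψ h2 := by
  obtain ⟨g, hg1, hg2⟩ := Cfsg.Agent.Lib.Helper43.exists_sl_map hn a b φ ψ ha hb hφ hψ h1 h2
  refine ⟨g, ?_⟩
  rw [mul_inv_eq_iff_eq_mul]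
  apply Subtype.ext
  rw [Matrix.SpecialLinearGroup.coe_mul, Matrix.SpecialLinearGroup.coe_mul, tv_coe, tv_coe,
    mul_add, add_mul, mul_one, one_mul, mul_vecMulVec, vecMulVec_mul, hg1, hg2]

/-- an element of the unitriangular group commuting with the simple root elements is trivial
outside the corner -/
theorem center_uni_apply {z : SLn n K} (hz : z ∈ uniSL n K)
    (hc : ∀ u ∈ uniSL n K, u * z = z * u) (i j : Fin n) (hij : i ≠ j)
    (h : i.val ≠ 0 ∨ j.val + 1 ≠ n) : z.1 i j = 0 := by
  by_cases hj : j.val + 1 < n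
  · -- column claim
    set j' : Fin n := ⟨j.val + 1, hj⟩ with hj'
    have hlt : j < j' := by rw [Fin.lt_def]; show j.val < j.val + 1; omega
    have h1 := hc _ (transvection_mem_uniSL hlt (1 : K))
    have h2 := congrArg (fun M : SLn n K => M.1 i j') h1
    simp only [Matrix.SpecialLinearGroup.coe_mul] at h2
    have e1 : ((Matrix.SpecialLinearGroup.transvection (ne_of_lt hlt) (1 : K) : SLn n K).1 * z.1) i j'
        = z.1 i j' := Matrix.transvection_mul_apply_of_ne _ _ _ _ hij _ _
    have e2 : (z.1 * (Matrix.SpecialLinearGroup.transvection (ne_of_lt hlt) (1 : K) : SLn n K).1) i j'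
        = z.1 i j' + 1 * z.1 i j := Matrix.mul_transvection_apply_same _ _ _ _ _
    rw [e1, e2, one_mul] at h2
    exact (left_eq_add.mp h2)
  · -- row claim
    have hi : i.val ≠ 0 := by
      rcases h with h | h
      · exact h
      · exfalso; have := j.2; omega
    have hi1 : i.val - 1 < n := by have := i.2; omega
    set i' : Fin n := ⟨i.val - 1, hi1⟩ with hi'
    have hlt : i' < i := by rw [Fin.lt_def]; show i.val - 1 < i.val; omega
    have h1 := hc _ (transvection_mem_uniSL hlt (1 : K))
    have h2 := congrArg (fun M : SLn n K => M.1 i' j) h1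
    simp only [Matrix.SpecialLinearGroup.coe_mul] at h2
    have e1 : ((Matrix.SpecialLinearGroup.transvection (ne_of_lt hlt) (1 : K) : SLn n K).1 * z.1) i' j
        = z.1 i' j + 1 * z.1 i j := Matrix.transvection_mul_apply_same _ _ _ _ _
    have e2 : (z.1 * (Matrix.SpecialLinearGroup.transvection (ne_of_lt hlt) (1 : K) : SLn n K).1) i' j
        = z.1 i' j := Matrix.mul_transvection_apply_of_ne _ _ _ _ (Ne.symm hij) _ _
    rw [e1, e2, one_mul] at h2
    exact (add_eq_left.mp h2)

/-- a central element of the unitriangular group is a corner transvection -/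
theorem center_uni_eq (hn : 2 ≤ n) {z : SLn n K} (hz : z ∈ uniSL n K)
    (hc : ∀ u ∈ uniSL n K, u * z = z * u) :
    ∃ (c : K) (h : (Pi.single (⟨n - 1, by omega⟩ : Fin n) (1 : K)) ⬝ᵥ
      (Pi.single (⟨0, by omega⟩ : Fin n) c) = 0),
      z = tv (Pi.single (⟨0, by omega⟩ : Fin n) c) (Pi.single (⟨n - 1, by omega⟩ : Fin n) (1 : K)) h := by
  have hne : (⟨n - 1, by omega⟩ : Fin n) ≠ ⟨0, by omega⟩ := by
    intro h
    have := congrArg Fin.val h
    simp only at this
    omega
  have hdot : ∀ c : K, (Pi.single (⟨n - 1, by omega⟩ : Fin n) (1 : K)) ⬝ᵥ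
      (Pi.single (⟨0, by omega⟩ : Fin n) c) = 0 := by
    intro c
    rw [single_dotProduct, one_mul, Pi.single_apply, if_neg hne]
  refine ⟨z.1 ⟨0, by omega⟩ ⟨n - 1, by omega⟩, hdot _, ?_⟩
  apply Subtype.ext
  ext i j
  rw [tv_apply]
  by_cases hij : i = j
  · subst hij
    rw [hz.2, Matrix.one_apply_eq]
    by_cases hi : i = ⟨0, by omega⟩
    · rw [Pi.single_apply (⟨n - 1, by omega⟩ : Fin n), if_neg (by rw [hi]; exact hne.symm), mul_zero,
        add_zero]
    · rw [Pi.single_apply (⟨0, by omega⟩ : Fin n), if_neg hi, zero_mul, add_zero]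
  · rw [Matrix.one_apply_ne hij, zero_add]
    by_cases hi : i = ⟨0, by omega⟩
    · by_cases hj : j = ⟨n - 1, by omega⟩
      · rw [hi, hj, Pi.single_eq_same, Pi.single_eq_same, mul_one]
      · rw [Pi.single_apply (⟨n - 1, by omega⟩ : Fin n), if_neg hj, mul_zero]
        apply center_uni_apply hz hc i j hij
        right
        intro h
        apply hj
        apply Fin.ext
        show j.val = n - 1
        omega
    · rw [Pi.single_apply (⟨0, by omega⟩ : Fin n), if_neg hi, zero_mul]
      apply center_uni_apply hz hc i j hij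
      left
      intro h
      exact hi (Fin.ext h)

/-- membership of a general transvection in the unitriangular group -/
theorem tv_mem_uniSL (a φ : Fin n → K) (h : φ ⬝ᵥ a = 0)
    (hlow : ∀ i j : Fin n, j ≤ i → a i * φ j = 0) : tv a φ h ∈ uniSL n K := by
  rw [mem_uniSL]
  constructor
  · intro i j hji
    rw [tv_apply, Matrix.one_apply_ne (ne_of_gt hji), zero_add]
    exact hlow i j hji.le
  · intro i
    rw [tv_apply, Matrix.one_apply_eq, hlow i i le_rfl, add_zero]

section Closed

variable [Finite K]

/-- a nontrivial strongly closed subgroup of the unitriangular group contains every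
transvection of the unitriangular group -/
theorem tv_mem_of_closed (p : ℕ) [Fact p.Prime] [CharP K p] (hn : 3 ≤ n)
    (T : Subgroup (SLn n K)) (hTU : T ≤ uniSL n K) (hT : T ≠ ⊥)
    (hcl : ∀ x ∈ T, ∀ g : SLn n K, g * x * g⁻¹ ∈ uniSL n K → g * x * g⁻¹ ∈ T)
    (a φ : Fin n → K) (h : φ ⬝ᵥ a = 0) (hU : tv a φ h ∈ uniSL n K) : tv a φ h ∈ T := by
  haveI : NeZero n := ⟨by omega⟩
  by_cases ha : a = 0
  · have : tv a φ h = 1 := by
      apply Subtype.ext
      rw [tv_coe, ha, zero_vecMulVec, add_zero]
      rfl
    rw [this]; exact one_mem _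
  by_cases hφ : φ = 0
  · have : tv a φ h = 1 := by
      apply Subtype.ext
      rw [tv_coe, hφ, vecMulVec_zero, add_zero]
      rfl
    rw [this]; exact one_mem _
  have hnorm : uniSL n K ≤ Subgroup.normalizer (T : Set (SLn n K)) := by
    intro u hu
    rw [Subgroup.mem_normalizer_iff]
    intro x
    constructor
    · intro hx
      exact hcl x hx u (mul_mem (mul_mem hu (hTU hx)) (inv_mem hu))
    · intro hx
      have h1 : u⁻¹ * (u * x * u⁻¹) * u⁻¹⁻¹ = x := by group
      have h2 := hcl _ hx u⁻¹ (by
        rw [h1]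
        have h3 : x = u⁻¹ * (u * x * u⁻¹) * u := by group
        rw [h3]
        exact mul_mem (mul_mem (inv_mem hu) (hTU hx)) hu)
      rwa [h1] at h2
  obtain ⟨w, hwT, hw1, hwc⟩ := Cfsg.Agent.Lib.Helper53.exists_mem_center_of_normal_subgroup
    (uniSL_isPGroup (n := n) (K := K) p) hTU hnorm hT
  obtain ⟨c, hd, hw⟩ := center_uni_eq (by omega) (hTU hwT) hwc
  have hc : c ≠ 0 := by
    rintro rfl
    apply hw1
    rw [hw]
    apply Subtype.ext
    rw [tv_coe, Pi.single_zero, zero_vecMulVec, add_zero]
    rfl
  obtain ⟨g, hg⟩ := conj_tv hn (Pi.single (⟨0, by omega⟩ : Fin n) c) a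
    (Pi.single (⟨n - 1, by omega⟩ : Fin n) (1 : K)) φ
    (by
      intro h0
      have := congrFun h0 ⟨0, by omega⟩
      rw [Pi.single_eq_same] at this
      exact hc this)
    ha
    (by
      intro h0
      have := congrFun h0 ⟨n - 1, by omega⟩
      rw [Pi.single_eq_same] at this
      exact one_ne_zero this)
    hφ hd h
  rw [← hw] at hg
  have := hcl w hwT g (by rw [hg]; exact hU)
  rwa [hg] at this

/-- a nontrivial strongly closed subgroup of the unitriangular group is the whole group -/
theorem eq_uniSL_of_closed (p : ℕ) [Fact p.Prime] [CharP K p] (hn : 3 ≤ n)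
    (T : Subgroup (SLn n K)) (hTU : T ≤ uniSL n K) (hT : T ≠ ⊥)
    (hcl : ∀ x ∈ T, ∀ g : SLn n K, g * x * g⁻¹ ∈ uniSL n K → g * x * g⁻¹ ∈ T) :
    T = uniSL n K := by
  apply le_antisymm hTU
  have key : ∀ k : ℕ, ∀ u ∈ uniSL n K,
      (∀ i j : Fin n, k ≤ j.val → u.1 i j = (1 : Matrix (Fin n) (Fin n) K) i j) → u ∈ T := by
    intro k
    induction k with
    | zero =>
      intro u hu h
      have : u = 1 := by
        apply Subtype.ext
        ext i j
        exact h i j (Nat.zero_le _)
      rw [this]; exact one_mem _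
    | succ k ih =>
      intro u hu h
      by_cases hk : k < n
      · set kk : Fin n := ⟨k, hk⟩ with hkk
        set a : Fin n → K := fun i => if i < kk then u.1 i kk else 0 with ha
        have hdot : (Pi.single kk (1 : K)) ⬝ᵥ a = 0 := by
          rw [single_dotProduct, one_mul, ha]
          simp
        have hmU : tv a (Pi.single kk (1 : K)) hdot ∈ uniSL n K := by
          apply tv_mem_uniSL
          intro i j hji
          by_cases hi : i < kk
          · rw [Pi.single_apply, if_neg (by intro hj; rw [hj] at hji; exact absurd hi (not_lt.2 hji)),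
              mul_zero]
          · rw [ha]; simp only [if_neg hi, zero_mul]
        have hmT := tv_mem_of_closed p hn T hTU hT hcl a (Pi.single kk (1 : K)) hdot hmU
        -- the row `kk` of `u`
        have hrow : (Pi.single kk (1 : K)) ᵥ* u.1 = Pi.single kk (1 : K) := by
          rw [single_one_vecMul]
          funext j
          show u.1 kk j = _
          rcases lt_trichotomy j kk with hj | hj | hj
          · rw [hu.1 hj, Pi.single_apply, if_neg (ne_of_lt hj)]
          · rw [hj, hu.2, Pi.single_eq_same]
          · rw [h kk j (by rw [Fin.lt_def] at hj; show k + 1 ≤ j.val; exact hj),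
              Matrix.one_apply_ne (ne_of_lt hj), Pi.single_apply, if_neg (ne_of_gt hj)]
        have hprod : (tv a (Pi.single kk (1 : K)) hdot : SLn n K).1 *
            (u.1 - vecMulVec a (Pi.single kk (1 : K))) = u.1 := by
          rw [tv_coe, add_mul, one_mul, mul_sub, vecMulVec_mul, vecMulVec_mul_vecMulVec, hrow,
            hdot, zero_smul, vecMulVec_zero, sub_zero]
          abel
        have hu' : ((tv a (Pi.single kk (1 : K)) hdot)⁻¹ * u : SLn n K).1
            = u.1 - vecMulVec a (Pi.single kk (1 : K)) := by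
          have h1 : ((tv a (Pi.single kk (1 : K)) hdot)⁻¹ * u : SLn n K).1
              = ((tv a (Pi.single kk (1 : K)) hdot)⁻¹ : SLn n K).1 *
                ((tv a (Pi.single kk (1 : K)) hdot : SLn n K).1 *
                  (u.1 - vecMulVec a (Pi.single kk (1 : K)))) := by
            rw [hprod, Matrix.SpecialLinearGroup.coe_mul]
          rw [h1, ← mul_assoc, ← Matrix.SpecialLinearGroup.coe_mul, inv_mul_cancel,
            Matrix.SpecialLinearGroup.coe_one, one_mul]
        have hu'U : (tv a (Pi.single kk (1 : K)) hdot)⁻¹ * u ∈ uniSL n K :=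
          mul_mem (inv_mem hmU) hu
        have hu'T : (tv a (Pi.single kk (1 : K)) hdot)⁻¹ * u ∈ T := by
          apply ih _ hu'U
          intro i j hkj
          rw [hu', Matrix.sub_apply, vecMulVec_apply]
          by_cases hj : j = kk
          · rw [hj, Pi.single_eq_same, mul_one, ha]
            rcases lt_trichotomy i kk with hi | hi | hi
            · simp only [if_pos hi]
              rw [sub_self, Matrix.one_apply_ne (ne_of_lt hi)]
            · rw [hi]
              simp only [lt_irrefl, if_false]
              rw [sub_zero, hu.2, Matrix.one_apply_eq]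
            · simp only [if_neg (not_lt.2 hi.le)]
              rw [sub_zero, hu.1 hi, Matrix.one_apply_ne (ne_of_gt hi)]
          · rw [Pi.single_apply, if_neg hj, mul_zero, sub_zero]
            apply h
            have : j.val ≠ k := fun h' => hj (Fin.ext h')
            omega
        have : u = tv a (Pi.single kk (1 : K)) hdot * ((tv a (Pi.single kk (1 : K)) hdot)⁻¹ * u) := by
          group
        rw [this]
        exact mul_mem hmT hu'T
      · apply ih u hu
        intro i j hkj
        exfalso
        have := j.2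
        omega
  intro u hu
  exact key n u hu (fun i j hj => by have := j.2; omega)

end Closed

end Cfsg.Agent.Lib.Helper86.SLn
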