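import Mathlib
import Cfsg.Agent.Lib.Helper86.SimpleGen
import Cfsg.Agent.Lib.Helper86.SLTrans
import Cfsg.Agent.Lib.Helper86.SLPar
import Cfsg.Agent.Lib.Helper5.SLGen

set_option autoImplicit false
set_option linter.style.haveILetI false
set_option linter.unusedSectionVars false
set_option linter.dupNamespace false
set_option linter.unusedVariables false

/-! # The `p`-fusion system of `PSL_n(K)` in characteristic `p` is simple (`n ≥ 3`) -/

namespace Cfsg.Agent.Lib.Helper86.SLn

open Matrix

variable {n : ℕ} {K : Type*} [Field K]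

theorem transvection_pow {i j : Fin n} (hij : i ≠ j) (c : K) (m : ℕ) :
    (Matrix.SpecialLinearGroup.transvection hij c : SLn n K) ^ m
      = Matrix.SpecialLinearGroup.transvection hij (m • c) := by
  induction m with
  | zero => rw [pow_zero, zero_smul, Matrix.SpecialLinearGroup.transvection_coeff_zero]
  | succ m ih =>
    rw [pow_succ, ih, ← Matrix.SpecialLinearGroup.transvection_add, succ_nsmul]

theorem transvection_pow_char (p : ℕ) [CharP K p] {i j : Fin n} (hij : i ≠ j) (c : K) :
    (Matrix.SpecialLinearGroup.transvection hij c : SLn n K) ^ p = 1 := by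
  rw [transvection_pow, nsmul_eq_mul, CharP.cast_eq_zero, zero_mul,
    Matrix.SpecialLinearGroup.transvection_coeff_zero]

/-- the center of `SL_n(K)` has no `p`-torsion in characteristic `p` -/
theorem center_pfree (p : ℕ) [Fact p.Prime] [CharP K p] {z : SLn n K}
    (hz : z ∈ Subgroup.center (SLn n K)) (k : ℕ) (hk : z ^ (p ^ k) = 1) : z = 1 := by
  obtain ⟨r, hr, hrz⟩ := Matrix.SpecialLinearGroup.mem_center_iff.1 hz
  rcases Nat.eq_zero_or_pos n with h0 | hpos
  · subst h0
    apply Subtype.ext
    ext i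
    exact i.elim0
  · have h1 : r ^ (p ^ k) = 1 := by
      have h2 := congrArg (fun M : SLn n K => M.1 ⟨0, hpos⟩ ⟨0, hpos⟩) hk
      simp only [Matrix.SpecialLinearGroup.coe_pow, Matrix.SpecialLinearGroup.coe_one] at h2
      rw [← hrz, ← map_pow, Matrix.scalar_apply, Matrix.diagonal_apply_eq,
        Matrix.one_apply_eq] at h2
      exact h2
    have h2 : (r - 1) ^ (p ^ k) = 0 := by rw [sub_pow_char_pow, h1, one_pow, sub_self]
    have h3 : r = 1 := sub_eq_zero.1 (eq_zero_of_pow_eq_zero h2)
    apply Subtype.ext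
    rw [← hrz, h3, map_one]
    rfl

/-- the projection to `PSL_n(K)` -/
abbrev proj (n : ℕ) (K : Type*) [Field K] :
    SLn n K →* Matrix.ProjectiveSpecialLinearGroup (Fin n) K :=
  QuotientGroup.mk' (Subgroup.center (SLn n K))

theorem proj_surjective : Function.Surjective (proj n K) :=
  QuotientGroup.mk'_surjective _

theorem proj_eq_one {z : SLn n K} (hz : z ∈ Subgroup.center (SLn n K)) : proj n K z = 1 :=
  (QuotientGroup.eq_one_iff z).2 hz

/-- `p`-elements of `SL_n(K)` with the same image in `PSL_n(K)` are equal -/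
theorem eq_of_proj_eq (p : ℕ) [Fact p.Prime] [CharP K p] {x y : SLn n K} {a b : ℕ}
    (hx : x ^ (p ^ a) = 1) (hy : y ^ (p ^ b) = 1) (h : proj n K x = proj n K y) : x = y := by
  have hz : y⁻¹ * x ∈ Subgroup.center (SLn n K) := QuotientGroup.eq.1 h.symm
  have hc : Commute y (y⁻¹ * x) := (Subgroup.mem_center_iff.1 hz y)
  have h1 : (y * (y⁻¹ * x)) ^ (p ^ (a + b)) = y ^ (p ^ (a + b)) * (y⁻¹ * x) ^ (p ^ (a + b)) :=
    hc.mul_pow _
  rw [mul_inv_cancel_left] at h1
  have hx' : x ^ (p ^ (a + b)) = 1 := by rw [pow_add, pow_mul, hx, one_pow]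
  have hy' : y ^ (p ^ (a + b)) = 1 := by rw [pow_add, mul_comm, pow_mul, hy, one_pow]
  rw [hx', hy', one_mul] at h1
  have h2 := center_pfree p hz (a + b) h1.symm
  exact (inv_mul_eq_one.1 h2).symm

theorem conj_pow_eq_one {u g : SLn n K} {m : ℕ} (hu : u ^ m = 1) : (g * u * g⁻¹) ^ m = 1 := by
  rw [conj_pow, hu, mul_one, mul_inv_cancel]

/-- lifting normalizers of unipotent subgroups -/
theorem conj_mem_of_proj_mem_normalizer (p : ℕ) [Fact p.Prime] [CharP K p] [NeZero n]
    {A : Subgroup (SLn n K)} (hA : A ≤ uniSL n K) {g : SLn n K}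
    (hg : proj n K g ∈ Subgroup.normalizer
      ((A.map (proj n K) : Subgroup (Matrix.ProjectiveSpecialLinearGroup (Fin n) K)) :
        Set (Matrix.ProjectiveSpecialLinearGroup (Fin n) K)))
    {u : SLn n K} (hu : u ∈ A) : g * u * g⁻¹ ∈ A := by
  have h1 : proj n K (g * u * g⁻¹) ∈ A.map (proj n K) := by
    rw [map_mul, map_mul, map_inv]
    exact (Subgroup.mem_normalizer_iff.1 hg _).1 (Subgroup.mem_map_of_mem _ hu)
  obtain ⟨u', hu', hu'eq⟩ := Subgroup.mem_map.1 h1
  have := eq_of_proj_eq p (uni_pow_eq_one p (hA hu')) (conj_pow_eq_one (g := g)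
    (uni_pow_eq_one p (hA hu))) hu'eq
  rw [← this]
  exact hu'

/-- lifting centralizers of unipotent subgroups -/
theorem commute_of_proj_mem_centralizer (p : ℕ) [Fact p.Prime] [CharP K p] [NeZero n]
    {A : Subgroup (SLn n K)} (hA : A ≤ uniSL n K) {g : SLn n K}
    (hg : proj n K g ∈ Subgroup.centralizer
      ((A.map (proj n K) : Subgroup (Matrix.ProjectiveSpecialLinearGroup (Fin n) K)) :
        Set (Matrix.ProjectiveSpecialLinearGroup (Fin n) K)))
    {a : SLn n K} (ha : a ∈ A) : g * a = a * g := by
  have h1 : proj n K (g * a * g⁻¹) = proj n K a := by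
    rw [map_mul, map_mul, map_inv]
    have := Subgroup.mem_centralizer_iff.1 hg (proj n K a) (Subgroup.mem_map_of_mem _ ha)
    rw [← this, mul_inv_cancel_right]
  have := eq_of_proj_eq p (conj_pow_eq_one (g := g) (uni_pow_eq_one p (hA ha)))
    (uni_pow_eq_one p (hA ha)) h1
  rw [mul_inv_eq_iff_eq_mul] at this
  exact this

theorem proj_rad_le (k : ℕ) : (radSL n K k).map (proj n K) ≤ (uniSL n K).map (proj n K) :=
  Subgroup.map_mono (radSL_le_uniSL k)

theorem proj_par_le_normalizer (k : ℕ) :
    (parSL n K k).map (proj n K) ≤ Subgroup.normalizer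
      (((radSL n K k).map (proj n K) : Subgroup (Matrix.ProjectiveSpecialLinearGroup (Fin n) K)) :
        Set (Matrix.ProjectiveSpecialLinearGroup (Fin n) K)) :=
  (Subgroup.map_mono (parSL_le_normalizer k)).trans (Subgroup.le_normalizer_map _)

theorem centralizer_proj_rad (p : ℕ) [Fact p.Prime] [CharP K p] [NeZero n] {k : ℕ} (hk : 0 < k)
    (hkn : k < n) :
    Subgroup.centralizer
      (((radSL n K k).map (proj n K) : Subgroup (Matrix.ProjectiveSpecialLinearGroup (Fin n) K)) :
        Set (Matrix.ProjectiveSpecialLinearGroup (Fin n) K)) ≤ (radSL n K k).map (proj n K) := by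
  intro x hx
  obtain ⟨g, rfl⟩ := proj_surjective (n := n) (K := K) x
  obtain ⟨z, hz, hzg⟩ := centralizer_radSL hk hkn g
    (fun a ha => commute_of_proj_mem_centralizer p (radSL_le_uniSL k) hx ha)
  refine Subgroup.mem_map.2 ⟨z * g, hzg, ?_⟩
  rw [map_mul, proj_eq_one hz, one_mul]

theorem orderOf_proj_of_pow (p : ℕ) [Fact p.Prime] {t : SLn n K} {a : ℕ}
    (ht : t ^ (p ^ a) = 1) : ∃ k : ℕ, orderOf (proj n K t) = p ^ k := by
  have h : (proj n K t) ^ (p ^ a) = 1 := by rw [← map_pow, ht, map_one]
  obtain ⟨k, -, hk⟩ := (Nat.dvd_prime_pow Fact.out).1 (orderOf_dvd_of_pow_eq_one h)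
  exact ⟨k, hk⟩

/-- the image of the unitriangular group is a Sylow `p`-subgroup of `PSL_n(K)` -/
noncomputable def pslSylow [Fintype K] (p : ℕ) [Fact p.Prime] [CharP K p] [NeZero n] :
    Sylow p (Matrix.ProjectiveSpecialLinearGroup (Fin n) K) :=
  ((uniSL_isPGroup (n := n) (K := K) p).map (proj n K)).toSylow
    (fun h => not_dvd_index_uniSL (n := n) (K := K) p
      (h.trans (Subgroup.index_map_dvd _ proj_surjective)))

theorem coe_pslSylow [Fintype K] (p : ℕ) [Fact p.Prime] [CharP K p] [NeZero n] :
    ((pslSylow p : Sylow p (Matrix.ProjectiveSpecialLinearGroup (Fin n) K)) :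
      Subgroup (Matrix.ProjectiveSpecialLinearGroup (Fin n) K)) = (uniSL n K).map (proj n K) :=
  rfl

/-- the `p`-fusion system of `PSL_n(K)`, `n ≥ 3`, `K` finite of characteristic `p`, is simple -/
theorem psl_fusion_simple [Fintype K] (p : ℕ) [Fact p.Prime] [CharP K p] (hn : 3 ≤ n)
    (S : Sylow p (Matrix.ProjectiveSpecialLinearGroup (Fin n) K)) :
    (Cfsg.groupFusionSystem
      (S : Subgroup (Matrix.ProjectiveSpecialLinearGroup (Fin n) K))).IsSimple p := by
  haveI : NeZero n := ⟨by omega⟩
  apply isSimple_of_sylow_gens p (pslSylow p) ?_ ?_ ?_ S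
  · -- the Sylow subgroup is nontrivial
    intro hbot
    rw [coe_pslSylow] at hbot
    have h01 : (⟨0, by omega⟩ : Fin n) < ⟨1, by omega⟩ := by
      rw [Fin.lt_def]; exact Nat.zero_lt_one
    have ht := transvection_mem_uniSL h01 (1 : K)
    have h1 : proj n K (Matrix.SpecialLinearGroup.transvection (ne_of_lt h01) (1 : K)) = 1 := by
      have := Subgroup.mem_map_of_mem (proj n K) ht
      rw [hbot, Subgroup.mem_bot] at this
      exact this
    have h2 := (QuotientGroup.eq_one_iff _).1 h1
    exact one_ne_zero ((Matrix.SpecialLinearGroup.transvection_mem_center_iff _ _).1 h2)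
  · -- strongly closed subgroups
    intro T hTP hT hcl
    rw [coe_pslSylow] at hTP hcl ⊢
    have h1 : uniSL n K ⊓ T.comap (proj n K) = uniSL n K := by
      apply eq_uniSL_of_closed p hn _ inf_le_left
      · intro hbot
        obtain ⟨⟨x, hxT⟩, hx1⟩ := Subgroup.ne_bot_iff_exists_ne_one.1 hT
        obtain ⟨u, hu, hux⟩ := Subgroup.mem_map.1 (hTP hxT)
        have huT' : u ∈ uniSL n K ⊓ T.comap (proj n K) :=
          ⟨hu, by show proj n K u ∈ T; rw [hux]; exact hxT⟩
        rw [hbot, Subgroup.mem_bot] at huT'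
        apply hx1
        apply Subtype.ext
        show x = 1
        rw [← hux, huT', map_one]
      · intro x hx g hgx
        refine ⟨hgx, ?_⟩
        show proj n K (g * x * g⁻¹) ∈ T
        rw [map_mul, map_mul, map_inv]
        apply hcl _ hx.2
        rw [← map_inv, ← map_mul, ← map_mul]
        exact Subgroup.mem_map_of_mem _ hgx
    apply le_antisymm hTP
    rw [Subgroup.map_le_iff_le_comap, ← h1]
    exact inf_le_right
  · -- generation of the normalizer
    intro x hx
    rw [coe_pslSylow] at hx ⊢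
    obtain ⟨g, rfl⟩ := proj_surjective (n := n) (K := K) x
    have hgU : g ∈ upperSL n K := by
      apply mem_upperSL_of_conj
      intro u hu
      have hx' : proj n K g⁻¹ ∈ Subgroup.normalizer
          (((uniSL n K).map (proj n K) :
            Subgroup (Matrix.ProjectiveSpecialLinearGroup (Fin n) K)) :
              Set (Matrix.ProjectiveSpecialLinearGroup (Fin n) K)) := by
        rw [map_inv]; exact inv_mem hx
      have := conj_mem_of_proj_mem_normalizer p le_rfl hx' hu
      rwa [inv_inv] at this
    have hg := upperSL_le_closure hgU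
    have h1 : proj n K g ∈ (Subgroup.closure (upperGens n K)).map (proj n K) :=
      Subgroup.mem_map_of_mem _ hg
    rw [MonoidHom.map_closure] at h1
    refine Subgroup.closure_mono ?_ h1
    rintro _ ⟨d, hd, rfl⟩
    rcases hd with hd | ⟨i, j, hij, c, hc, hij1, rfl⟩
    · -- unipotent elements
      refine ⟨Subgroup.le_normalizer (Subgroup.mem_map_of_mem _ hd),
        (radSL n K 1).map (proj n K), proj_rad_le 1, ?_,
        centralizer_proj_rad p (by omega) (by omega), ?_⟩
      · exact (Subgroup.map_mono (uniSL_le_parSL 1)).trans (proj_par_le_normalizer 1)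
      · apply Subgroup.subset_closure
        exact ⟨proj_par_le_normalizer 1 (Subgroup.mem_map_of_mem _ (uniSL_le_parSL 1 hd)),
          orderOf_proj_of_pow p (uni_pow_eq_one p hd)⟩
    · -- torus elements
      have hdN : proj n K (Matrix.SpecialLinearGroup.diag2n hij c hc) ∈ Subgroup.normalizer
          (((uniSL n K).map (proj n K) :
            Subgroup (Matrix.ProjectiveSpecialLinearGroup (Fin n) K)) :
              Set (Matrix.ProjectiveSpecialLinearGroup (Fin n) K)) := by
        apply Subgroup.le_normalizer_map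
        apply Subgroup.mem_map_of_mem
        exact upperSL_le_normalizer (diag2n_mem_upperSL hij c hc)
      obtain ⟨k, hk, hkn, hki⟩ : ∃ k : ℕ, 0 < k ∧ k < n ∧ k ≠ i.val + 1 := by
        by_cases hi : i.val = 0
        · exact ⟨2, by omega, by omega, by omega⟩
        · exact ⟨1, by omega, by omega, by omega⟩
      refine ⟨hdN, (radSL n K k).map (proj n K), proj_rad_le k, ?_,
        centralizer_proj_rad p hk hkn, ?_⟩
      · exact (Subgroup.map_mono (uniSL_le_parSL k)).trans (proj_par_le_normalizer k)
      · have ht : ∀ (a b : Fin n) (hab : a ≠ b) (e : K), ¬ (k ≤ a.val ∧ b.val < k) →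
            proj n K (Matrix.SpecialLinearGroup.transvection hab e) ∈
              Subgroup.closure (pElts p ((radSL n K k).map (proj n K))) := by
          intro a b hab e h
          apply Subgroup.subset_closure
          exact ⟨proj_par_le_normalizer k
              (Subgroup.mem_map_of_mem _ (transvection_mem_parSL hab h e)),
            orderOf_proj_of_pow p (a := 1) (by rw [pow_one]; exact transvection_pow_char p hab e)⟩
        have hA : ¬ (k ≤ i.val ∧ j.val < k) := by omega
        have hB : ¬ (k ≤ j.val ∧ i.val < k) := by omega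
        rw [Cfsg.Agent.Lib.Helper5.diag2n_decompose hij c hc]
        simp only [map_mul]
        exact mul_mem (ht i j hij _ hA) (mul_mem (ht j i hij.symm _ hB) (mul_mem (ht i j hij _ hA)
          (mul_mem (ht i j hij _ hA) (mul_mem (ht j i hij.symm _ hB) (ht i j hij _ hA)))))

end Cfsg.Agent.Lib.Helper86.SLn
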