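import Mathlib
import Cfsg.Agent.Lib.Helper86.UnBase
import Cfsg.Agent.Lib.Helper86.QuotCrit

set_option autoImplicit false
set_option linter.style.haveILetI false
set_option linter.unusedSectionVars false
set_option linter.dupNamespace false
set_option linter.unusedVariables false
set_option linter.unusedSimpArgs false

/-! # The `p`-fusion system of `PSU_n(q)` in the defining characteristic is simple -/

namespace Cfsg.Agent.Lib.Helper86.Un

open Matrix Cfsg.Agent.Lib.Helper86.TriGen

variable {F : Type*} [Field F] [Fintype F] {σ : F →+* F} {n : ℕ}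

theorem mul6_mem {G : Type*} [Group G] (K : Subgroup G) {a b c d e f : G} (ha : a ∈ K)
    (hb : b ∈ K) (hc : c ∈ K) (hd : d ∈ K) (he : e ∈ K) (hf : f ∈ K) :
    a * b * c * (d * e * f) ∈ K :=
  K.mul_mem (K.mul_mem (K.mul_mem ha hb) hc) (K.mul_mem (K.mul_mem hd he) hf)

/-- the fusion system of a quotient of the special unitary group by its centre is simple -/
theorem fusion_simple_UJ (hs : Herm σ) (p : ℕ) [Fact p.Prime] [CharP F p] (hn : 4 ≤ n)
    {G : Type*} [Group G] [Finite G] (π : UJ n σ →* G) (hπ : Function.Surjective π)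
    (hker : ∀ z, π z = 1 ↔ z ∈ Subgroup.center (UJ n σ)) (S : Sylow p G) :
    (Cfsg.groupFusionSystem (S : Subgroup G)).IsSimple p := by
  have hRS_le : uniU n σ (bS n) ≤ uniU n σ (vl n) :=
    uniG_le_of_mono mat (vl_inj n) (bS_mono n)
  have hRH_le : uniU n σ (bH n) ≤ uniU n σ (vl n) :=
    uniG_le_of_mono mat (vl_inj n) (bH_mono n)
  have hB_RS : triU n σ (vl n)
      ≤ Subgroup.normalizer ((uniU n σ (bS n) : Subgroup (UJ n σ)) : Set (UJ n σ)) :=
    (triG_le_of_mono mat (vl_inj n) (bS_mono n)).trans (triG_le_normalizer mat (bS n))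
  have hB_RH : triU n σ (vl n)
      ≤ Subgroup.normalizer ((uniU n σ (bH n) : Subgroup (UJ n σ)) : Set (UJ n σ)) :=
    (triG_le_of_mono mat (vl_inj n) (bH_mono n)).trans (triG_le_normalizer mat (bH n))
  have hU_RS : uniU n σ (vl n)
      ≤ Subgroup.normalizer ((uniU n σ (bS n) : Subgroup (UJ n σ)) : Set (UJ n σ)) :=
    (uniG_le_triG mat (vl n)).trans hB_RS
  have hU_RH : uniU n σ (vl n)
      ≤ Subgroup.normalizer ((uniU n σ (bH n) : Subgroup (UJ n σ)) : Set (UJ n σ)) :=
    (uniG_le_triG mat (vl n)).trans hB_RH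
  let gens : Set (UJ n σ) := {d | d ∈ Subgroup.normalizer ((uniU n σ (vl n) : Subgroup (UJ n σ)) :
        Set (UJ n σ)) ∧
      ∃ R : Subgroup (UJ n σ), R ≤ uniU n σ (vl n) ∧
        uniU n σ (vl n) ≤ Subgroup.normalizer (R : Set (UJ n σ)) ∧
        (∀ g : UJ n σ, (∀ a ∈ R, g * a = a * g) → ∃ z ∈ Subgroup.center (UJ n σ), z * g ∈ R) ∧
        d ∈ Subgroup.closure {m : UJ n σ | m ∈ Subgroup.normalizer (R : Set (UJ n σ)) ∧
          ∃ a : ℕ, m ^ (p ^ a) = 1}}
  refine isSimple_of_central_quotient p π hπ hker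
    (fun z hz a hza => center_pfree hs (by omega) p hz a hza) (uniU n σ (vl n))
    (fun u hu => ⟨n, uniU_pow_eq_one p hu⟩) (not_dvd_index_uniU hs p) ?_
    (fun T hTU hT hcl => eq_uniU_of_closed hs T hcl p hn hTU hT) gens ?_ (fun d hd => hd) S
  · -- the unitriangular subgroup is nontrivial
    obtain ⟨o, ho⟩ : ∃ o : Fin n, o.val = 0 := ⟨⟨0, by omega⟩, rfl⟩
    obtain ⟨e, he0, he⟩ := hs.exists_skew
    have hro : (Fin.rev o).val = n - 1 := by rw [Fin.val_rev, ho]
    have hol : o ≠ Fin.rev o := fun h => by have := congrArg Fin.val h; omega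
    have hLU : L σ o e ∈ uniU n σ (vl n) :=
      L_mem_uniU (by omega) he (by unfold vl; omega)
    intro hbot
    rw [hbot, Subgroup.mem_bot] at hLU
    have h1 : mat (L σ o e) o (Fin.rev o) = mat (1 : UJ n σ) o (Fin.rev o) := by rw [hLU]
    rw [mat_L (by omega) he, map_one, Matrix.one_apply_ne hol] at h1
    unfold Lm at h1
    rw [Matrix.add_apply, Matrix.one_apply_ne hol, Matrix.single_apply_same, zero_add] at h1
    exact he0 h1
  · -- generation of the Borel subgroup
    rw [normalizer_uniU hs]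
    apply tri_le_of_torus hs (by omega)
    · -- unitriangular elements
      intro u hu
      refine Subgroup.subset_closure ⟨Subgroup.le_normalizer hu, uniU n σ (bS n), hRS_le, hU_RS,
        fun g hg => cent_bS_mem hs hn hg, ?_⟩
      exact Subgroup.subset_closure ⟨hU_RS hu, n, uniU_pow_eq_one p hu⟩
    · -- short root tori
      intro i j hij hj t ht
      have hi2 := i.2
      have hj2 := j.2
      have hg : Gen i j := ⟨by omega, by omega, by omega, by omega⟩
      have hX : ∀ (a b : Fin n), Gen a b → 2 * a.val + 1 < n → 2 * b.val + 1 < n → ∀ c : F,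
          X σ a b c ∈ Subgroup.closure {m : UJ n σ | m ∈ Subgroup.normalizer
            ((uniU n σ (bS n) : Subgroup (UJ n σ)) : Set (UJ n σ)) ∧ ∃ a : ℕ, m ^ (p ^ a) = 1} := by
        intro a b hab ha hb c
        have ha2 := a.2
        have hb2 := b.2
        refine Subgroup.subset_closure ⟨triG_le_normalizer mat (bS n) ?_, 4,
          X_pow hs.invol p hab c⟩
        apply X_mem_triU hs.invol hab c
        · rw [bS_of_low ha, bS_of_low hb]
        · rw [bS_of_high (by rw [Fin.val_rev]; omega), bS_of_high (by rw [Fin.val_rev]; omega)]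
      refine Subgroup.subset_closure ⟨?_, uniU n σ (bS n), hRS_le, hU_RS,
        fun g hg => cent_bS_mem hs hn hg, ?_⟩
      · rw [normalizer_uniU hs]
        exact mem_triU_of_offdiag
          (fun x y hxy => by rw [mat_Hd hs.invol hg ht]; exact Hm_offdiag i j t x y hxy) _
      · rw [← (Hd_eq hs.invol hg ht).1]
        exact mul6_mem _ (hX i j hg (by omega) hj t) (hX j i hg.symm hj (by omega) _)
          (hX i j hg (by omega) hj t) (hX i j hg (by omega) hj _)
          (hX j i hg.symm hj (by omega) _) (hX i j hg (by omega) hj _)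
    · -- the long root torus
      intro i hi t ht hσt
      have hi2 := i.2
      have hi' : 2 * i.val + 1 ≠ n := by omega
      have hri : (Fin.rev i).val = n - (i.val + 1) := Fin.val_rev i
      have hL : ∀ (a : Fin n), 2 * a.val + 1 ≠ n → a.val ≠ 0 → a.val + 1 ≠ n → ∀ c : F,
          c + σ c = 0 →
          L σ a c ∈ Subgroup.closure {m : UJ n σ | m ∈ Subgroup.normalizer
            ((uniU n σ (bH n) : Subgroup (UJ n σ)) : Set (UJ n σ)) ∧ ∃ a : ℕ, m ^ (p ^ a) = 1} := by
        intro a ha ha0 ha1 c hc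
        have ha2 := a.2
        refine Subgroup.subset_closure ⟨triG_le_normalizer mat (bH n) ?_, 2, L_pow p ha hc⟩
        apply L_mem_triU ha hc
        rw [bH_of_mid ha0 ha1, bH_of_mid (by rw [Fin.val_rev]; omega) (by rw [Fin.val_rev]; omega)]
      obtain ⟨a, b, ha, hb, hprod, hv⟩ := H2_prod hs hi' ht hσt
      refine Subgroup.subset_closure ⟨?_, uniU n σ (bH n), hRH_le, hU_RH,
        fun g hg => cent_bH_mem hs (by omega) hg, ?_⟩
      · rw [normalizer_uniU hs]
        exact mem_triU_of_offdiag
          (fun x y hxy => by rw [mat_H2 hs hi' ht hσt]; exact H2m_offdiag i t x y hxy) _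
      · rw [← hprod]
        have h1 : 2 * (Fin.rev i).val + 1 ≠ n := by omega
        have h2 : (Fin.rev i).val ≠ 0 := by omega
        have h3 : (Fin.rev i).val + 1 ≠ n := by omega
        exact mul6_mem _ (hL i hi' (by omega) (by omega) a ha)
          (hL _ h1 h2 h3 _ (skew_neg (skew_inv ha)))
          (hL i hi' (by omega) (by omega) a ha) (hL i hi' (by omega) (by omega) _ (skew_neg hb))
          (hL _ h1 h2 h3 _ (skew_inv hb)) (hL i hi' (by omega) (by omega) _ (skew_neg hb))
    · -- the torus of the unitary group in dimension three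
      intro i m hm him t ht
      have hi2 := i.2
      have hm2 := m.2
      have hi' : i.val ≠ m.val := by omega
      have hri : (Fin.rev i).val = n - (i.val + 1) := Fin.val_rev i
      have hQ : ∀ (a : Fin n), a.val ≠ m.val → a.val ≠ 0 → a.val + 1 ≠ n → ∀ c d : F,
          d + σ d + c * σ c = 0 →
          Q σ a m c d ∈ Subgroup.closure {m : UJ n σ | m ∈ Subgroup.normalizer
            ((uniU n σ (bH n) : Subgroup (UJ n σ)) : Set (UJ n σ)) ∧ ∃ a : ℕ, m ^ (p ^ a) = 1} := by
        intro a ha ha0 ha1 c d hq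
        have ha2 := a.2
        refine Subgroup.subset_closure ⟨triG_le_normalizer mat (bH n) ?_, 3,
          Q_pow hs.invol p hm ha hq⟩
        apply Q_mem_triU hs.invol hm ha hq
        · rw [bH_of_mid ha0 ha1, bH_of_mid (by omega) (by omega)]
        · rw [bH_of_mid (by omega) (by omega),
            bH_of_mid (by rw [Fin.val_rev]; omega) (by rw [Fin.val_rev]; omega)]
      obtain ⟨c, c₀, hprod, hv, q1, q2, q3, q4, q5, q6⟩ := H3_prod hs hm hi' ht
      refine Subgroup.subset_closure ⟨?_, uniU n σ (bH n), hRH_le, hU_RH,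
        fun g hg => cent_bH_mem hs (by omega) hg, ?_⟩
      · rw [normalizer_uniU hs]
        exact mem_triU_of_offdiag
          (fun x y hxy => by rw [mat_H3 hs hm hi' ht]; exact H3m_offdiag i m t x y hxy) _
      · rw [← hprod]
        have h1 : (Fin.rev i).val ≠ m.val := by omega
        have h2 : (Fin.rev i).val ≠ 0 := by omega
        have h3 : (Fin.rev i).val + 1 ≠ n := by omega
        exact mul6_mem _ (hQ i hi' (by omega) (by omega) _ _ q1) (hQ _ h1 h2 h3 _ _ q2)
          (hQ i hi' (by omega) (by omega) _ _ q3) (hQ i hi' (by omega) (by omega) _ _ q4)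
          (hQ _ h1 h2 h3 _ _ q5) (hQ i hi' (by omega) (by omega) _ _ q6)

end Cfsg.Agent.Lib.Helper86.Un
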