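import Mathlib
import Cfsg.Agent.Lib.Helper86.SpTri

set_option autoImplicit false
set_option linter.style.haveILetI false
set_option linter.unusedSectionVars false
set_option linter.dupNamespace false
set_option linter.unusedVariables false

/-! # Elements of the symplectic group; the Borel subgroup as a Sylow normalizer -/

namespace Cfsg.Agent.Lib.Helper86.Spn

open Matrix Cfsg.Agent.Lib.Helper86.SLn

variable {m : ℕ} {K : Type*} [Field K]

/-! ### Siegel elements -/

/-- the Siegel element `[1 S; 0 1]` for a symmetric matrix `S` -/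
def rS (S : Matrix (Fin m) (Fin m) K) (hS : Sᵀ = S) : Spn m K :=
  ⟨fromBlocks 1 S 0 1, (Cfsg.Agent.Lib.Helper13.blockUpper_symp 1 S 1).2
    ⟨by rw [transpose_one, mul_one, one_mul, hS], by rw [transpose_one, mul_one]⟩⟩

theorem rS_coe (S : Matrix (Fin m) (Fin m) K) (hS : Sᵀ = S) :
    (rS S hS : Spn m K).1 = fromBlocks 1 S 0 1 := rfl

theorem rS_congr {S S' : Matrix (Fin m) (Fin m) K} (h : S = S') (hS : Sᵀ = S) (hS' : S'ᵀ = S') :
    rS S hS = rS S' hS' := by
  subst h; rfl

theorem rS_mul (S S' : Matrix (Fin m) (Fin m) K) (hS : Sᵀ = S) (hS' : S'ᵀ = S') :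
    rS S hS * rS S' hS' = rS (S + S') (by rw [transpose_add, hS, hS']) := by
  apply Subtype.ext
  rw [sp_coe_mul, rS_coe, rS_coe, rS_coe, fromBlocks_multiply]
  simp [add_comm]

theorem rS_zero : rS (0 : Matrix (Fin m) (Fin m) K) transpose_zero = 1 :=
  Subtype.ext (by rw [rS_coe, sp_coe_one, fromBlocks_one])

theorem rS_inv (S : Matrix (Fin m) (Fin m) K) (hS : Sᵀ = S) :
    (rS S hS)⁻¹ = rS (-S) (by rw [transpose_neg, hS]) := by
  rw [inv_eq_iff_mul_eq_one, rS_mul, ← rS_zero]
  exact rS_congr (by rw [add_neg_cancel]) _ _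

theorem rS_mem_bS (S : Matrix (Fin m) (Fin m) K) (hS : Sᵀ = S) : rS S hS ∈ uniSp m K (bS m) := by
  refine ⟨?_, ?_⟩
  · rintro (i | i) (j | j) h
    · exact absurd h (lt_irrefl _)
    · exact absurd h (by show ¬ (1 < 0); omega)
    · rfl
    · exact absurd h (lt_irrefl _)
  · rintro (i | i) (j | j) h
    · rw [rS_coe, fromBlocks_apply₁₁, Matrix.one_apply, Matrix.one_apply]
      simp
    · exact absurd h (by show ¬ (0 = 1); omega)
    · exact absurd h (by show ¬ (1 = 0); omega)
    · rw [rS_coe, fromBlocks_apply₂₂, Matrix.one_apply, Matrix.one_apply]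
      simp

theorem rS_mem_uni (S : Matrix (Fin m) (Fin m) K) (hS : Sᵀ = S) : rS S hS ∈ uniSp m K (rk m) :=
  uniSp_le_rk bS_mono (rS_mem_bS S hS)

/-! ### Levi elements -/

/-- the Levi element `[A 0; 0 A⁻ᵀ]` -/
def lev : GL (Fin m) K →* Spn m K where
  toFun A := ⟨fromBlocks (A : Matrix (Fin m) (Fin m) K) 0 0
      ((A⁻¹ : GL (Fin m) K) : Matrix (Fin m) (Fin m) K)ᵀ,
    (Cfsg.Agent.Lib.Helper13.blockUpper_symp _ 0 _).2
      ⟨by rw [zero_mul, transpose_zero, mul_zero], by
        rw [transpose_transpose]; exact A.mul_inv⟩⟩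
  map_one' := by
    apply Subtype.ext
    show fromBlocks ((1 : GL (Fin m) K) : Matrix (Fin m) (Fin m) K) 0 0
      (((1 : GL (Fin m) K)⁻¹ : GL (Fin m) K) : Matrix (Fin m) (Fin m) K)ᵀ = 1
    rw [inv_one, Units.val_one, transpose_one, fromBlocks_one]
  map_mul' A B := by
    apply Subtype.ext
    show fromBlocks ((A * B : GL (Fin m) K) : Matrix (Fin m) (Fin m) K) 0 0
        (((A * B)⁻¹ : GL (Fin m) K) : Matrix (Fin m) (Fin m) K)ᵀ
      = fromBlocks (A : Matrix (Fin m) (Fin m) K) 0 0
          ((A⁻¹ : GL (Fin m) K) : Matrix (Fin m) (Fin m) K)ᵀ *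
        fromBlocks (B : Matrix (Fin m) (Fin m) K) 0 0
          ((B⁻¹ : GL (Fin m) K) : Matrix (Fin m) (Fin m) K)ᵀ
    rw [fromBlocks_multiply, _root_.mul_inv_rev, Units.val_mul, Units.val_mul, transpose_mul]
    simp only [Matrix.mul_zero, Matrix.zero_mul, add_zero, zero_add]

theorem lev_coe (A : GL (Fin m) K) : (lev A : Spn m K).1 =
    fromBlocks (A : Matrix (Fin m) (Fin m) K) 0 0
      ((A⁻¹ : GL (Fin m) K) : Matrix (Fin m) (Fin m) K)ᵀ := rfl

/-- the Levi element of a matrix of determinant one -/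
def levSL : SLn m K →* Spn m K := lev.comp Matrix.SpecialLinearGroup.toGL

theorem levSL_coe (A : SLn m K) : (levSL A : Spn m K).1 =
    fromBlocks A.1 0 0 ((A⁻¹ : SLn m K).1)ᵀ := by
  show (lev (Matrix.SpecialLinearGroup.toGL A) : Spn m K).1 = _
  rw [lev_coe, ← map_inv]
  rfl

theorem lev_mem_bS (A : GL (Fin m) K) : lev A ∈ triSp m K (bS m) := by
  show (lev A : Spn m K).1.BlockTriangular (bS m)
  rintro (i | i) (j | j) h
  · exact absurd h (lt_irrefl _)
  · exact absurd h (by show ¬ (1 < 0); omega)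
  · rfl
  · exact absurd h (lt_irrefl _)

theorem levSL_mem_uni {A : SLn m K} (hA : A ∈ uniSL m K) : levSL A ∈ uniSp m K (rk m) := by
  have hA' := (uniSL m K).inv_mem hA
  rw [mem_uniSL] at hA hA'
  rw [mem_uniSp_rk]
  constructor
  · rintro (i | i) (j | j) h
    · rw [levSL_coe, fromBlocks_apply₁₁]
      exact hA.1 i j (by rw [rk_inl, rk_inl] at h; exact Fin.lt_def.2 h)
    · rfl
    · rfl
    · rw [levSL_coe, fromBlocks_apply₂₂, Matrix.transpose_apply]
      apply hA'.1 j i
      rw [rk_inr, rk_inr] at h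
      rw [Fin.lt_def]
      have := i.2; have := j.2
      omega
  · rintro (i | i)
    · rw [levSL_coe, fromBlocks_apply₁₁]
      exact hA.2 i
    · rw [levSL_coe, fromBlocks_apply₂₂, Matrix.transpose_apply]
      exact hA'.2 i

theorem conj_symm (A S : Matrix (Fin m) (Fin m) K) (hS : Sᵀ = S) :
    (A * S * Aᵀ)ᵀ = A * S * Aᵀ := by
  rw [transpose_mul, transpose_mul, transpose_transpose, hS, Matrix.mul_assoc]

/-- conjugating a Siegel element by a block upper triangular element -/
theorem conj_rS (h : Spn m K) (hh : h.1.toBlocks₂₁ = 0) (S : Matrix (Fin m) (Fin m) K)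
    (hS : Sᵀ = S) :
    h * rS S hS * h⁻¹ = rS (h.1.toBlocks₁₁ * S * (h.1.toBlocks₁₁)ᵀ) (conj_symm _ S hS) := by
  obtain ⟨A, Q, D, hhe, hA11⟩ : ∃ A Q D : Matrix (Fin m) (Fin m) K,
      h.1 = fromBlocks A Q 0 D ∧ h.1.toBlocks₁₁ = A :=
    ⟨_, _, _, (by rw [← hh]; exact (fromBlocks_toBlocks h.1).symm), rfl⟩
  have hsp := h.2
  rw [hhe, Cfsg.Agent.Lib.Helper13.blockUpper_symp] at hsp
  obtain ⟨hs1, hs2⟩ := hsp
  have hs3 : Aᵀ * D = 1 := by
    have h1 := mul_eq_one_comm.mp hs2
    have h2 := congrArg Matrix.transpose h1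
    rwa [transpose_mul, transpose_transpose, transpose_one] at h2
  rw [mul_inv_eq_iff_eq_mul]
  apply Subtype.ext
  rw [sp_coe_mul, sp_coe_mul, rS_coe, rS_coe, hA11, hhe, fromBlocks_multiply, fromBlocks_multiply]
  rw [fromBlocks_inj]
  refine ⟨by simp, ?_, by simp, by simp⟩
  rw [Matrix.mul_assoc (A * S), hs3]
  simp [add_comm]

theorem conj_rS_lev (A : GL (Fin m) K) (S : Matrix (Fin m) (Fin m) K) (hS : Sᵀ = S) :
    lev A * rS S hS * (lev A)⁻¹ = rS ((A : Matrix (Fin m) (Fin m) K) * S *
      (A : Matrix (Fin m) (Fin m) K)ᵀ) (conj_symm _ S hS) := by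
  rw [conj_rS (lev A) (by rw [lev_coe, toBlocks_fromBlocks₂₁])]
  exact rS_congr (by rw [lev_coe, toBlocks_fromBlocks₁₁]) _ _

/-! ### the flag argument -/

theorem vecMul_single_apply' {n : Type*} [Fintype n] [DecidableEq n] (v : n → K) (i j : n)
    (c : K) (b : n) : (v ᵥ* Matrix.single i j c) b = if b = j then v i * c else 0 := by
  show ∑ a, v a * Matrix.single i j c a b = _
  rw [Finset.sum_eq_single i]
  · rw [Matrix.single_apply]
    by_cases hb : b = j
    · rw [if_pos ⟨rfl, hb.symm⟩, if_pos hb]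
    · rw [if_neg (fun h => hb h.2.symm), if_neg hb, mul_zero]
  · intro a _ ha
    rw [Matrix.single_apply, if_neg (fun h => ha h.1.symm), mul_zero]
  · intro h; exact absurd (Finset.mem_univ i) h

/-- for every index of positive rank there is a unitriangular element with a nonzero entry
just above the diagonal in the preceding row -/
theorem pred_elt (x : Idx m) (hx : 0 < rk m x) :
    ∃ (x' : Idx m) (u : Spn m K), u ∈ uniSp m K (rk m) ∧ rk m x' + 1 = rk m x ∧
      ∃ c : K, c ≠ 0 ∧ ∀ w : Idx m → K, (u.1 *ᵥ w) x' = w x' + c * w x := by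
  rcases x with i | i
  · rw [rk_inl] at hx
    have hi1 : i.val - 1 < m := by have := i.2; omega
    set i' : Fin m := ⟨i.val - 1, hi1⟩ with hi'
    have hlt : i' < i := by rw [Fin.lt_def]; show i.val - 1 < i.val; omega
    refine ⟨Sum.inl i', levSL (Matrix.SpecialLinearGroup.transvection (ne_of_lt hlt) 1),
      levSL_mem_uni (transvection_mem_uniSL hlt 1), ?_, 1, one_ne_zero, fun w => ?_⟩
    · rw [rk_inl, rk_inl]; show i.val - 1 + 1 = i.val; omega
    · rw [levSL_coe, fromBlocks_mulVec, Sum.elim_inl, Pi.add_apply, Matrix.zero_mulVec,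
        Pi.zero_apply, add_zero, transvection_mulVec, if_pos rfl]
      rfl
  · by_cases him : i.val + 1 = m
    · refine ⟨Sum.inl i, rS (Matrix.single i i 1) (Matrix.transpose_single i i 1),
        rS_mem_uni _ _, ?_, 1, one_ne_zero, fun w => ?_⟩
      · rw [rk_inl, rk_inr]; omega
      · rw [rS_coe, fromBlocks_mulVec, Sum.elim_inl, Pi.add_apply, Matrix.one_mulVec,
          Matrix.single_mulVec, Function.update_self]
        rfl
    · have hj : i.val + 1 < m := by have := i.2; omega
      set j : Fin m := ⟨i.val + 1, hj⟩ with hj'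
      have hlt : i < j := by rw [Fin.lt_def]; show i.val < i.val + 1; omega
      refine ⟨Sum.inr j, levSL (Matrix.SpecialLinearGroup.transvection (ne_of_lt hlt) 1),
        levSL_mem_uni (transvection_mem_uniSL hlt 1), ?_, -1, neg_ne_zero.2 one_ne_zero,
        fun w => ?_⟩
      · rw [rk_inr, rk_inr]; show 2 * m - 1 - (i.val + 1) + 1 = 2 * m - 1 - i.val; omega
      · rw [levSL_coe, fromBlocks_mulVec, Sum.elim_inr, Pi.add_apply, Matrix.zero_mulVec,
          Pi.zero_apply, zero_add, Matrix.mulVec_transpose,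
          Matrix.SpecialLinearGroup.transvection_inv,
          Matrix.SpecialLinearGroup.transvection_coe, Matrix.vecMul_add, Matrix.vecMul_one,
          Pi.add_apply, vecMul_single_apply', if_pos rfl]
        show w (Sum.inr j) + w (Sum.inr i) * -1 = w (Sum.inr j) + -1 * w (Sum.inr i)
        ring

/-- an element normalizing the unitriangular group is triangular -/
theorem mem_triSp_of_conj {g : Spn m K}
    (hg : ∀ u ∈ uniSp m K (rk m), g⁻¹ * u * g ∈ uniSp m K (rk m)) : g ∈ triSp m K (rk m) := by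
  have key : ∀ k : ℕ, ∀ v : Idx m → K, (∀ x, k ≤ rk m x → v x = 0) →
      ∀ x, k ≤ rk m x → (g.1 *ᵥ v) x = 0 := by
    intro k
    induction k with
    | zero =>
      intro v hv x _
      have : v = 0 := funext fun x => hv x (Nat.zero_le _)
      rw [this, Matrix.mulVec_zero]
      rfl
    | succ k ih =>
      intro v hv x hx
      obtain ⟨x', u, huU, hx', c, hc, hrow⟩ := pred_elt (K := K) x (by omega)
      have hu' := hg u huU
      set u' : Spn m K := g⁻¹ * u * g with hu'def
      have hgu : g * u' = u * g := by rw [hu'def]; group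
      have hu'' := mem_uniSp_rk.1 hu'
      have hy : ∀ y, k ≤ rk m y → (u'.1 *ᵥ v - v) y = 0 := by
        intro y hy
        rw [Pi.sub_apply, Matrix.mulVec, dotProduct, Finset.sum_eq_single y]
        · rw [hu''.2, one_mul, sub_self]
        · intro z _ hzy
          rcases lt_or_gt_of_ne (fun h => hzy (rk_injective h)) with h | h
          · rw [hu''.1 h, zero_mul]
          · rw [hv z (by omega), mul_zero]
        · intro h; exact absurd (Finset.mem_univ y) h
      have h1 := ih (u'.1 *ᵥ v - v) hy x' (by omega)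
      rw [Matrix.mulVec_sub, Matrix.mulVec_mulVec, ← sp_coe_mul, hgu, sp_coe_mul,
        ← Matrix.mulVec_mulVec, Pi.sub_apply, hrow] at h1
      have h2 : c * (g.1 *ᵥ v) x = 0 := by
        rw [add_sub_cancel_left] at h1
        exact h1
      exact (mul_eq_zero.1 h2).resolve_left hc
  show g.1.BlockTriangular (rk m)
  intro x y hxy
  have h := key (rk m y + 1) (Pi.single y 1) (by
    intro z hz
    rw [Pi.single_apply, if_neg]
    intro h; subst h; omega) x (by omega)
  rw [Matrix.mulVec_single_one] at h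
  exact h

theorem normalizer_uniSp :
    Subgroup.normalizer ((uniSp m K (rk m) : Subgroup (Spn m K)) : Set (Spn m K))
      = triSp m K (rk m) := by
  apply le_antisymm _ (triSp_le_normalizer (rk m))
  intro g hg
  apply mem_triSp_of_conj
  intro u hu
  have hg' := Subgroup.inv_mem _ hg
  have := (Subgroup.mem_normalizer_iff.mp hg' u).mp hu
  rwa [inv_inv] at this

/-- the unitriangular group has index prime to `p` -/
theorem not_dvd_index_uniSp [Fintype K] (p : ℕ) [Fact p.Prime] [CharP K p] :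
    ¬ p ∣ (uniSp m K (rk m)).index := by
  classical
  obtain ⟨k, hk⟩ := IsPGroup.iff_card.mp (uniSp_isPGroup (m := m) (K := K) p)
  have hmod : Nat.card (Subgroup.normalizer ((uniSp m K (rk m) : Subgroup (Spn m K)) :
      Set (Spn m K)) ⧸ (uniSp m K (rk m)).subgroupOf (Subgroup.normalizer
        ((uniSp m K (rk m) : Subgroup (Spn m K)) : Set (Spn m K))))
      ≡ Nat.card (Spn m K ⧸ uniSp m K (rk m)) [MOD p] :=
    Sylow.card_quotient_normalizer_modEq_card_quotient (p := p) hk
  haveI : ((uniSp m K (rk m)).subgroupOf (Subgroup.normalizer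
      ((uniSp m K (rk m) : Subgroup (Spn m K)) : Set (Spn m K)))).Normal :=
    Subgroup.normal_in_normalizer
  intro hdvd
  have h1 : p ∣ Nat.card (Subgroup.normalizer ((uniSp m K (rk m) : Subgroup (Spn m K)) :
      Set (Spn m K)) ⧸ (uniSp m K (rk m)).subgroupOf (Subgroup.normalizer
        ((uniSp m K (rk m) : Subgroup (Spn m K)) : Set (Spn m K)))) := by
    have h2 : Nat.card (Spn m K ⧸ uniSp m K (rk m)) % p = 0 := Nat.mod_eq_zero_of_dvd hdvd
    unfold Nat.ModEq at hmod
    rw [h2] at hmod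
    exact Nat.dvd_of_mod_eq_zero hmod
  obtain ⟨x, hx⟩ := exists_prime_orderOf_dvd_card' p h1
  obtain ⟨b, rfl⟩ := QuotientGroup.mk_surjective x
  have hbU : (b : Spn m K) ∈ triSp m K (rk m) := le_of_eq normalizer_uniSp b.2
  have h3 : (QuotientGroup.mk b : Subgroup.normalizer ((uniSp m K (rk m) : Subgroup (Spn m K)) :
      Set (Spn m K)) ⧸ (uniSp m K (rk m)).subgroupOf (Subgroup.normalizer
        ((uniSp m K (rk m) : Subgroup (Spn m K)) : Set (Spn m K)))) ^ (Fintype.card K - 1) = 1 := by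
    rw [← QuotientGroup.mk_pow, QuotientGroup.eq_one_iff, Subgroup.mem_subgroupOf]
    rw [Subgroup.coe_pow]
    exact tri_pow_mem_uni hbU
  have h4 := orderOf_dvd_of_pow_eq_one h3
  rw [hx] at h4
  have h5 : p ∣ Fintype.card K := by
    rw [← CharP.cast_eq_zero_iff K p]
    exact Nat.cast_card_eq_zero K
  have h6 : 0 < Fintype.card K := Fintype.card_pos
  have h7 : p ∣ 1 := by
    have : Fintype.card K = (Fintype.card K - 1) + 1 := by omega
    rw [this] at h5
    exact (Nat.dvd_add_right h4).1 h5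
  exact (Fact.out : p.Prime).one_lt.ne' (Nat.dvd_one.1 h7)

end Cfsg.Agent.Lib.Helper86.Spn
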