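import Mathlib
import Cfsg.Agent.Lib.Helper86.SpElts

set_option autoImplicit false
set_option linter.style.haveILetI false
set_option linter.unusedSectionVars false
set_option linter.dupNamespace false
set_option linter.unusedVariables false

/-! # Centralizers of the Siegel and Heisenberg radicals in the symplectic group -/

namespace Cfsg.Agent.Lib.Helper86.Spn

open Matrix Cfsg.Agent.Lib.Helper86.SLn

variable {m : ℕ} {K : Type*} [Field K]

/-! ### scalars -/

/-- the scalar matrix `c`, for `c * c = 1` -/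
def scal (c : K) (hc : c * c = 1) : Spn m K :=
  ⟨fromBlocks (c • 1) 0 0 (c • 1), (Cfsg.Agent.Lib.Helper13.blockUpper_symp _ 0 _).2
    ⟨by rw [Matrix.zero_mul, transpose_zero, Matrix.mul_zero], by
      rw [transpose_smul, transpose_one, smul_mul_smul_comm, Matrix.mul_one, hc, one_smul]⟩⟩

theorem scal_coe (c : K) (hc : c * c = 1) : (scal c hc : Spn m K).1 = c • 1 := by
  show fromBlocks (c • (1 : Matrix (Fin m) (Fin m) K)) 0 0 (c • 1) = c • 1
  rw [← fromBlocks_one, fromBlocks_smul, smul_zero]

theorem scal_mem_center (c : K) (hc : c * c = 1) :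
    (scal c hc : Spn m K) ∈ Subgroup.center (Spn m K) := by
  rw [Subgroup.mem_center_iff]
  intro g
  apply Subtype.ext
  rw [sp_coe_mul, sp_coe_mul, scal_coe, Matrix.mul_smul, Matrix.smul_mul, Matrix.mul_one,
    Matrix.one_mul]

theorem scal_mul_mem_uniSp {β : Idx m → ℕ} {c : K} (hc : c * c = 1) {g : Spn m K}
    (h1 : ∀ x y, β y < β x → g.1 x y = 0)
    (h2 : ∀ x y, β x = β y → g.1 x y = if x = y then c else 0) :
    scal c hc * g ∈ uniSp m K β := by
  have hcoe : (scal c hc * g).1 = c • g.1 := by
    rw [sp_coe_mul, scal_coe, Matrix.smul_mul, Matrix.one_mul]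
  rw [mem_uniSp, hcoe]
  refine ⟨fun x y hxy => ?_, fun x y hxy => ?_⟩
  · rw [Matrix.smul_apply, h1 x y hxy, smul_zero]
  · rw [Matrix.smul_apply, h2 x y hxy, Matrix.one_apply]
    by_cases h : x = y
    · rw [if_pos h, if_pos h, smul_eq_mul, hc]
    · rw [if_neg h, if_neg h, smul_zero]

/-! ### block equations -/

/-- the block equations for commuting with a block upper triangular element -/
theorem comm_blocks {g a : Spn m K} {X Q Y : Matrix (Fin m) (Fin m) K}
    (ha : a.1 = fromBlocks X Q 0 Y) (h : g * a = a * g) :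
    g.1.toBlocks₁₁ * X = X * g.1.toBlocks₁₁ + Q * g.1.toBlocks₂₁ ∧
    g.1.toBlocks₁₁ * Q + g.1.toBlocks₁₂ * Y = X * g.1.toBlocks₁₂ + Q * g.1.toBlocks₂₂ ∧
    g.1.toBlocks₂₁ * X = Y * g.1.toBlocks₂₁ ∧
    g.1.toBlocks₂₁ * Q + g.1.toBlocks₂₂ * Y = Y * g.1.toBlocks₂₂ := by
  have h1 := congrArg Subtype.val h
  rw [sp_coe_mul, sp_coe_mul, ha] at h1
  obtain ⟨A, B, C, D, hg, hA, hB, hC, hD⟩ : ∃ A B C D : Matrix (Fin m) (Fin m) K,
      g.1 = fromBlocks A B C D ∧ g.1.toBlocks₁₁ = A ∧ g.1.toBlocks₁₂ = B ∧ g.1.toBlocks₂₁ = C ∧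
        g.1.toBlocks₂₂ = D :=
    ⟨_, _, _, _, (fromBlocks_toBlocks g.1).symm, rfl, rfl, rfl, rfl⟩
  rw [hA, hB, hC, hD]
  rw [hg, fromBlocks_multiply, fromBlocks_multiply, fromBlocks_inj] at h1
  simp only [Matrix.mul_zero, add_zero, Matrix.zero_mul, zero_add] at h1
  exact h1

/-- the block equations for commuting with a Siegel element -/
theorem comm_rS {g : Spn m K} {S : Matrix (Fin m) (Fin m) K} {hS : Sᵀ = S}
    (h : g * rS S hS = rS S hS * g) :
    S * g.1.toBlocks₂₁ = 0 ∧ g.1.toBlocks₁₁ * S = S * g.1.toBlocks₂₂ ∧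
      g.1.toBlocks₂₁ * S = 0 := by
  obtain ⟨h1, h2, h3, h4⟩ := comm_blocks (rS_coe S hS) h
  rw [Matrix.mul_one, Matrix.one_mul] at h1 h2 h4
  refine ⟨?_, ?_, ?_⟩
  · exact (left_eq_add.1 h1)
  · rw [add_comm] at h2
    exact add_left_cancel h2
  · exact (add_eq_right.1 h4)

/-- an element commuting with all Siegel elements -/
theorem cent_siegel (hm : 1 ≤ m) {g : Spn m K}
    (hg : ∀ (S : Matrix (Fin m) (Fin m) K) (hS : Sᵀ = S), g * rS S hS = rS S hS * g) :
    ∃ c : K, c * c = 1 ∧ (∀ x y, bS m y < bS m x → g.1 x y = 0) ∧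
      (∀ x y, bS m x = bS m y → g.1 x y = if x = y then c else 0) := by
  have hC : ∀ i j, g.1.toBlocks₂₁ i j = 0 := by
    intro i j
    have h := congrFun (congrFun (comm_rS (hg (Matrix.single i i 1)
      (Matrix.transpose_single i i 1))).1 i) j
    rw [Matrix.single_mul_apply_same, one_mul] at h
    exact h
  have hAD : ∀ i, g.1.toBlocks₁₁ * Matrix.single i i (1 : K)
      = Matrix.single i i (1 : K) * g.1.toBlocks₂₂ := fun i =>
    (comm_rS (hg (Matrix.single i i 1) (Matrix.transpose_single i i 1))).2.1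
  have hAcol : ∀ x i, x ≠ i → g.1.toBlocks₁₁ x i = 0 := by
    intro x i hxi
    have h := congrFun (congrFun (hAD i) x) i
    rw [Matrix.mul_single_apply_same, mul_one, Matrix.single_mul_apply_of_ne _ _ _ _ _ hxi] at h
    exact h
  have hDrow : ∀ i y, y ≠ i → g.1.toBlocks₂₂ i y = 0 := by
    intro i y hyi
    have h := congrFun (congrFun (hAD i) i) y
    rw [Matrix.single_mul_apply_same, one_mul, Matrix.mul_single_apply_of_ne _ _ _ _ _ hyi] at h
    exact h.symm
  have hdiag : ∀ i, g.1.toBlocks₁₁ i i = g.1.toBlocks₂₂ i i := by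
    intro i
    have h := congrFun (congrFun (hAD i) i) i
    rw [Matrix.single_mul_apply_same, one_mul, Matrix.mul_single_apply_same, mul_one] at h
    exact h
  have hoff : ∀ i j, i ≠ j → g.1.toBlocks₁₁ i i = g.1.toBlocks₂₂ j j := by
    intro i j hij
    have hS : (Matrix.single i j (1 : K) + Matrix.single j i 1)ᵀ
        = Matrix.single i j (1 : K) + Matrix.single j i 1 := by
      rw [transpose_add, Matrix.transpose_single, Matrix.transpose_single, add_comm]
    have h := congrFun (congrFun (comm_rS (hg _ hS)).2.1 i) j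
    rw [Matrix.mul_add, Matrix.add_mul, Matrix.add_apply, Matrix.add_apply,
      Matrix.mul_single_apply_same, mul_one, Matrix.mul_single_apply_of_ne _ _ _ _ _ hij.symm,
      Matrix.single_mul_apply_same, one_mul, Matrix.single_mul_apply_of_ne _ _ _ _ _ hij,
      add_zero, add_zero] at h
    exact h
  set o : Fin m := ⟨0, by omega⟩ with ho
  have hc : ∀ i, g.1.toBlocks₁₁ i i = g.1.toBlocks₁₁ o o := by
    intro i
    by_cases hi : i = o
    · rw [hi]
    · rw [hoff i o hi, hdiag o]
  refine ⟨g.1.toBlocks₁₁ o o, ?_, ?_, ?_⟩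
  · -- `c * c = 1`
    have hsp := g.2
    rw [← fromBlocks_toBlocks g.1, SymplecticGroup.fromBlocks_mem_iff] at hsp
    have h := congrFun (congrFun hsp.2.2 o) o
    rw [Matrix.sub_apply, Matrix.mul_apply, Matrix.mul_apply, Matrix.one_apply_eq,
      Finset.sum_eq_single o, Finset.sum_eq_zero, sub_zero, Matrix.transpose_apply,
      ← hdiag o] at h
    · exact h
    · intro k _
      rw [Matrix.transpose_apply, hC, zero_mul]
    · intro k _ hk
      rw [Matrix.transpose_apply, hAcol k o hk, zero_mul]
    · intro h'; exact absurd (Finset.mem_univ o) h'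
  · rintro (i | i) (j | j) h
    · exact absurd h (lt_irrefl _)
    · exact absurd h (by show ¬ (1 < 0); omega)
    · exact hC i j
    · exact absurd h (lt_irrefl _)
  · rintro (i | i) (j | j) h
    · show g.1.toBlocks₁₁ i j = _
      by_cases hij : i = j
      · rw [if_pos (by rw [hij]), hij, hc j]
      · rw [if_neg (fun h' => hij (Sum.inl_injective h')), hAcol i j hij]
    · exact absurd h (by show ¬ (0 = 1); omega)
    · exact absurd h (by show ¬ (1 = 0); omega)
    · show g.1.toBlocks₂₂ i j = _
      by_cases hij : i = j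
      · rw [if_pos (by rw [hij]), hij, ← hdiag j, hc j]
      · rw [if_neg (fun h' => hij (Sum.inr_injective h')), hDrow i j (Ne.symm hij)]

/-- the centralizer of the Siegel radical -/
theorem centralizer_bS (hm : 1 ≤ m) {g : Spn m K}
    (hg : ∀ a ∈ uniSp m K (bS m), g * a = a * g) :
    ∃ z ∈ Subgroup.center (Spn m K), z * g ∈ uniSp m K (bS m) := by
  obtain ⟨c, hc, h1, h2⟩ := cent_siegel hm (fun S hS => hg _ (rS_mem_bS S hS))
  exact ⟨scal c hc, scal_mem_center c hc, scal_mul_mem_uniSp hc h1 h2⟩

/-! ### the Heisenberg radical -/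

theorem bH_inl (i : Fin m) : bH m (Sum.inl i) = if i.val = 0 then 0 else 1 := rfl

theorem bH_inr (i : Fin m) : bH m (Sum.inr i) = if i.val = 0 then 2 else 1 := rfl

theorem rS_mem_bH {S : Matrix (Fin m) (Fin m) K} (hS : Sᵀ = S)
    (h : ∀ i j : Fin m, i.val ≠ 0 → j.val ≠ 0 → S i j = 0) : rS S hS ∈ uniSp m K (bH m) := by
  refine ⟨?_, ?_⟩
  · rintro (i | i) (j | j) hlt
    · rw [rS_coe, fromBlocks_apply₁₁, Matrix.one_apply_ne]
      rintro rfl; exact lt_irrefl _ hlt
    · exfalso
      rw [bH_inl, bH_inr] at hlt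
      split_ifs at hlt <;> omega
    · rfl
    · rw [rS_coe, fromBlocks_apply₂₂, Matrix.one_apply_ne]
      rintro rfl; exact lt_irrefl _ hlt
  · rintro (i | i) (j | j) heq
    · rw [rS_coe, fromBlocks_apply₁₁, Matrix.one_apply, Matrix.one_apply]
      simp
    · rw [rS_coe, fromBlocks_apply₁₂, Matrix.one_apply_ne (by simp)]
      rw [bH_inl, bH_inr] at heq
      apply h
      · intro h0; rw [if_pos h0] at heq; split_ifs at heq <;> omega
      · intro h0; rw [if_pos h0] at heq; split_ifs at heq <;> omega
    · rw [rS_coe, fromBlocks_apply₂₁, Matrix.one_apply_ne (by simp)]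
      rfl
    · rw [rS_coe, fromBlocks_apply₂₂, Matrix.one_apply, Matrix.one_apply]
      simp

theorem levSL_transvection_coe {i j : Fin m} (hij : i ≠ j) (c : K) :
    (levSL (Matrix.SpecialLinearGroup.transvection hij c) : Spn m K).1
      = fromBlocks (1 + Matrix.single i j c) 0 0 (1 + Matrix.single j i (-c)) := by
  rw [levSL_coe, Matrix.SpecialLinearGroup.transvection_inv,
    Matrix.SpecialLinearGroup.transvection_coe, Matrix.SpecialLinearGroup.transvection_coe,
    transpose_add, transpose_one, Matrix.transpose_single]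

theorem levSL_transvection_mem_bH {i j : Fin m} (hij : i ≠ j) (hi : i.val = 0) (c : K) :
    levSL (Matrix.SpecialLinearGroup.transvection hij c) ∈ uniSp m K (bH m) := by
  have hj : j.val ≠ 0 := fun h => hij (Fin.ext (by rw [hi, h]))
  refine ⟨?_, ?_⟩
  · rintro (a | a) (b | b) hlt
    · rw [levSL_transvection_coe, fromBlocks_apply₁₁, Matrix.add_apply, Matrix.one_apply_ne,
        Matrix.single_apply_of_ne, add_zero]
      · rintro ⟨rfl, rfl⟩
        rw [bH_inl, bH_inl, if_pos hi, if_neg hj] at hlt
        omega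
      · rintro rfl; exact lt_irrefl _ hlt
    · rw [levSL_transvection_coe, fromBlocks_apply₁₂]; rfl
    · rw [levSL_transvection_coe, fromBlocks_apply₂₁]; rfl
    · rw [levSL_transvection_coe, fromBlocks_apply₂₂, Matrix.add_apply, Matrix.one_apply_ne,
        Matrix.single_apply_of_ne, add_zero]
      · rintro ⟨rfl, rfl⟩
        rw [bH_inr, bH_inr, if_pos hi, if_neg hj] at hlt
        omega
      · rintro rfl; exact lt_irrefl _ hlt
  · rintro (a | a) (b | b) heq
    · rw [levSL_transvection_coe, fromBlocks_apply₁₁, Matrix.add_apply,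
        Matrix.single_apply_of_ne, add_zero, Matrix.one_apply, Matrix.one_apply]
      · simp
      · rintro ⟨rfl, rfl⟩
        rw [bH_inl, bH_inl, if_pos hi, if_neg hj] at heq
        omega
    · rw [levSL_transvection_coe, fromBlocks_apply₁₂, Matrix.one_apply_ne (by simp)]; rfl
    · rw [levSL_transvection_coe, fromBlocks_apply₂₁, Matrix.one_apply_ne (by simp)]; rfl
    · rw [levSL_transvection_coe, fromBlocks_apply₂₂, Matrix.add_apply,
        Matrix.single_apply_of_ne, add_zero, Matrix.one_apply, Matrix.one_apply]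
      · simp
      · rintro ⟨rfl, rfl⟩
        rw [bH_inr, bH_inr, if_pos hi, if_neg hj] at heq
        omega

/-- an element commuting with the Heisenberg radical -/
theorem cent_heis (hm : 1 ≤ m) {g : Spn m K}
    (hg : ∀ a ∈ uniSp m K (bH m), g * a = a * g) :
    ∃ c : K, c * c = 1 ∧ (∀ x y, bH m y < bH m x → g.1 x y = 0) ∧
      (∀ x y, bH m x = bH m y → g.1 x y = if x = y then c else 0) := by
  set o : Fin m := ⟨0, by omega⟩ with ho
  have ho0 : o.val = 0 := rfl
  have hne : ∀ j : Fin m, j.val ≠ 0 → o ≠ j := by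
    intro j hj h
    exact hj (by rw [← h])
  have heq : ∀ j : Fin m, j.val = 0 → j = o := fun j hj => Fin.ext hj
  -- the long root element
  have hτ := comm_rS (hg _ (rS_mem_bH (Matrix.transpose_single o o (1 : K)) (by
    intro i j hi hj
    rw [Matrix.single_apply_of_ne]
    rintro ⟨rfl, -⟩
    exact hi rfl)))
  have hCrow : ∀ y, g.1.toBlocks₂₁ o y = 0 := by
    intro y
    have h := congrFun (congrFun hτ.1 o) y
    rw [Matrix.single_mul_apply_same, one_mul] at h
    exact h
  have hCcol : ∀ x, g.1.toBlocks₂₁ x o = 0 := by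
    intro x
    have h := congrFun (congrFun hτ.2.2 x) o
    rw [Matrix.mul_single_apply_same, mul_one] at h
    exact h
  have hAcol : ∀ x, x ≠ o → g.1.toBlocks₁₁ x o = 0 := by
    intro x hx
    have h := congrFun (congrFun hτ.2.1 x) o
    rw [Matrix.mul_single_apply_same, mul_one, Matrix.single_mul_apply_of_ne _ _ _ _ _ hx] at h
    exact h
  have hDrow : ∀ y, y ≠ o → g.1.toBlocks₂₂ o y = 0 := by
    intro y hy
    have h := congrFun (congrFun hτ.2.1 o) y
    rw [Matrix.single_mul_apply_same, one_mul, Matrix.mul_single_apply_of_ne _ _ _ _ _ hy] at h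
    exact h.symm
  have hAD : g.1.toBlocks₁₁ o o = g.1.toBlocks₂₂ o o := by
    have h := congrFun (congrFun hτ.2.1 o) o
    rw [Matrix.single_mul_apply_same, one_mul, Matrix.mul_single_apply_same, mul_one] at h
    exact h
  -- the Levi transvections
  have hlev : ∀ j : Fin m, j.val ≠ 0 →
      (∀ y, g.1.toBlocks₁₁ j y = if y = j then g.1.toBlocks₁₁ o o else 0) ∧
      (∀ y, y ≠ o → g.1.toBlocks₁₂ j y = 0) := by
    intro j hj
    obtain ⟨h1, h2, -, -⟩ := comm_blocks (levSL_transvection_coe (hne j hj) (1 : K))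
      (hg _ (levSL_transvection_mem_bH (hne j hj) ho0 1))
    rw [Matrix.zero_mul, add_zero, Matrix.mul_add, Matrix.add_mul, Matrix.mul_one,
      Matrix.one_mul] at h1
    rw [Matrix.mul_zero, zero_add, Matrix.zero_mul, add_zero, Matrix.mul_add, Matrix.add_mul,
      Matrix.mul_one, Matrix.one_mul] at h2
    have h1' := add_left_cancel h1
    have h2' := add_left_cancel h2
    constructor
    · intro y
      have h := congrFun (congrFun h1' o) y
      rw [Matrix.single_mul_apply_same, one_mul] at h
      rw [← h]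
      by_cases hy : y = j
      · rw [if_pos hy, hy, Matrix.mul_single_apply_same, mul_one]
      · rw [if_neg hy, Matrix.mul_single_apply_of_ne _ _ _ _ _ hy]
    · intro y hy
      have h := congrFun (congrFun h2' o) y
      rw [Matrix.single_mul_apply_same, one_mul, Matrix.mul_single_apply_of_ne _ _ _ _ _ hy] at h
      exact h.symm
  -- the short root elements in the Siegel radical
  have hsh : ∀ j : Fin m, j.val ≠ 0 →
      (∀ y, g.1.toBlocks₂₁ j y = 0) ∧
      (∀ y, y ≠ o → g.1.toBlocks₂₂ j y = if y = j then g.1.toBlocks₁₁ o o else 0) := by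
    intro j hj
    have hS : (Matrix.single o j (1 : K) + Matrix.single j o 1)ᵀ
        = Matrix.single o j (1 : K) + Matrix.single j o 1 := by
      rw [transpose_add, Matrix.transpose_single, Matrix.transpose_single, add_comm]
    obtain ⟨h1, h2, -⟩ := comm_rS (hg _ (rS_mem_bH hS (by
      intro a b ha hb
      rw [Matrix.add_apply, Matrix.single_apply_of_ne, Matrix.single_apply_of_ne, add_zero]
      · rintro ⟨-, rfl⟩; exact hb rfl
      · rintro ⟨rfl, -⟩; exact ha rfl)))
    constructor
    · intro y
      have h := congrFun (congrFun h1 o) y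
      rw [Matrix.add_mul, Matrix.add_apply, Matrix.single_mul_apply_same, one_mul,
        Matrix.single_mul_apply_of_ne _ _ _ _ _ (hne j hj), add_zero] at h
      exact h
    · intro y hy
      have h := congrFun (congrFun h2 o) y
      rw [Matrix.add_mul, Matrix.add_apply, Matrix.single_mul_apply_same, one_mul,
        Matrix.single_mul_apply_of_ne _ _ _ _ _ (hne j hj), add_zero, Matrix.mul_add,
        Matrix.add_apply, Matrix.mul_single_apply_of_ne _ _ _ _ _ hy, add_zero] at h
      rw [← h]
      by_cases hyj : y = j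
      · rw [if_pos hyj, hyj, Matrix.mul_single_apply_same, mul_one]
      · rw [if_neg hyj, Matrix.mul_single_apply_of_ne _ _ _ _ _ hyj]
  refine ⟨g.1.toBlocks₁₁ o o, ?_, ?_, ?_⟩
  · -- `c * c = 1`
    have hsp := g.2
    rw [← fromBlocks_toBlocks g.1, SymplecticGroup.fromBlocks_mem_iff] at hsp
    have h := congrFun (congrFun hsp.2.2 o) o
    rw [Matrix.sub_apply, Matrix.mul_apply, Matrix.mul_apply, Matrix.one_apply_eq,
      Finset.sum_eq_single o, Finset.sum_eq_zero, sub_zero, Matrix.transpose_apply,
      ← hAD] at h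
    · exact h
    · intro k _
      rw [Matrix.transpose_apply, hCcol, zero_mul]
    · intro k _ hk
      rw [Matrix.transpose_apply, hAcol k hk, zero_mul]
    · intro h'; exact absurd (Finset.mem_univ o) h'
  · rintro (i | i) (j | j) h
    · rw [bH_inl, bH_inl] at h
      have hj : j = o := heq j (by split_ifs at h <;> omega)
      have hi : i ≠ o := by
        rintro rfl
        rw [hj] at h
        exact lt_irrefl _ h
      rw [hj]
      exact hAcol i hi
    · exfalso
      rw [bH_inl, bH_inr] at h
      split_ifs at h <;> omega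
    · rw [bH_inl, bH_inr] at h
      show g.1.toBlocks₂₁ i j = 0
      by_cases hi : i.val = 0
      · rw [heq i hi]; exact hCrow j
      · by_cases hj : j.val = 0
        · rw [heq j hj]; exact hCcol i
        · rw [if_neg hi, if_neg hj] at h
          omega
    · rw [bH_inr, bH_inr] at h
      have hi : i = o := heq i (by split_ifs at h <;> omega)
      have hj : j ≠ o := by
        rintro rfl
        rw [hi] at h
        exact lt_irrefl _ h
      rw [hi]
      exact hDrow j hj
  · rintro (i | i) (j | j) h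
    · rw [bH_inl, bH_inl] at h
      show g.1.toBlocks₁₁ i j = _
      by_cases hi : i.val = 0
      · have hj : j = o := heq j (by rw [if_pos hi] at h; split_ifs at h <;> omega)
        rw [heq i hi, hj, if_pos rfl]
      · rw [(hlev i hi).1 j]
        by_cases hij : j = i
        · rw [if_pos hij, if_pos (by rw [hij])]
        · rw [if_neg hij, if_neg (fun h' => hij (Sum.inl_injective h').symm)]
    · rw [bH_inl, bH_inr] at h
      show g.1.toBlocks₁₂ i j = _
      have hi : i.val ≠ 0 := by intro h0; rw [if_pos h0] at h; split_ifs at h <;> omega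
      have hj : j.val ≠ 0 := by intro h0; rw [if_pos h0] at h; split_ifs at h <;> omega
      rw [if_neg (by simp), (hlev i hi).2 j (fun h' => hj (by rw [h']))]
    · rw [bH_inr, bH_inl] at h
      show g.1.toBlocks₂₁ i j = _
      have hi : i.val ≠ 0 := by intro h0; rw [if_pos h0] at h; split_ifs at h <;> omega
      rw [if_neg (by simp), (hsh i hi).1 j]
    · rw [bH_inr, bH_inr] at h
      show g.1.toBlocks₂₂ i j = _
      by_cases hi : i.val = 0
      · have hj : j = o := heq j (by rw [if_pos hi] at h; split_ifs at h <;> omega)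
        rw [heq i hi, hj, if_pos rfl, hAD]
      · have hj : j.val ≠ 0 := by intro h0; rw [if_neg hi, if_pos h0] at h; omega
        rw [(hsh i hi).2 j (fun h' => hj (by rw [h']))]
        by_cases hij : j = i
        · rw [if_pos hij, if_pos (by rw [hij])]
        · rw [if_neg hij, if_neg (fun h' => hij (Sum.inr_injective h').symm)]

/-- the centralizer of the Heisenberg radical -/
theorem centralizer_bH (hm : 1 ≤ m) {g : Spn m K}
    (hg : ∀ a ∈ uniSp m K (bH m), g * a = a * g) :
    ∃ z ∈ Subgroup.center (Spn m K), z * g ∈ uniSp m K (bH m) := by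
  obtain ⟨c, hc, h1, h2⟩ := cent_heis hm hg
  exact ⟨scal c hc, scal_mem_center c hc, scal_mul_mem_uniSp hc h1 h2⟩

end Cfsg.Agent.Lib.Helper86.Spn
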