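import Mathlib
import Cfsg.Agent.Lib.Helper86.SLTrans
import Cfsg.Agent.Lib.Helper43.Transvec2

set_option autoImplicit false
set_option linter.style.haveILetI false
set_option linter.unusedSectionVars false
set_option linter.dupNamespace false
set_option linter.unusedVariables false

/-! # Congruence-invariant subspaces of symmetric matrices -/

namespace Cfsg.Agent.Lib.Helper86.SymMod

open Matrix Cfsg.Agent.Lib.Helper86.SLn

variable {m : ℕ} {K : Type*} [Field K]

/-- every element of a finite field is a difference of two squares -/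
theorem diff_of_squares [Finite K] (x : K) : ∃ y z : K, x = y * y - z * z := by
  by_cases h2 : (2 : K) = 0
  · haveI : CharP K 2 := CharTwo.of_one_ne_zero_of_two_eq_zero one_ne_zero h2
    obtain ⟨c, hc⟩ := FiniteField.isSquare_of_char_two (ringChar.eq K 2) x
    exact ⟨c, 0, by rw [hc, mul_zero, sub_zero]⟩
  · refine ⟨(x + 1) / 2, (x - 1) / 2, ?_⟩
    field_simp
    ring

theorem exists_two_ne (hm : 3 ≤ m) (l : Fin m) : ∃ k k' : Fin m, k ≠ l ∧ k' ≠ l ∧ k ≠ k' := by
  by_cases h0 : l.val = 0
  · refine ⟨⟨1, by omega⟩, ⟨2, by omega⟩, ?_, ?_, ?_⟩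
    · intro h; have := congrArg Fin.val h; simp only at this; omega
    · intro h; have := congrArg Fin.val h; simp only at this; omega
    · intro h; have := congrArg Fin.val h; simp only at this; omega
  · by_cases h1 : l.val = 1
    · refine ⟨⟨0, by omega⟩, ⟨2, by omega⟩, ?_, ?_, ?_⟩
      · intro h; have := congrArg Fin.val h; simp only at this; omega
      · intro h; have := congrArg Fin.val h; simp only at this; omega
      · intro h; have := congrArg Fin.val h; simp only at this; omega
    · refine ⟨⟨0, by omega⟩, ⟨1, by omega⟩, ?_, ?_, ?_⟩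
      · intro h; have := congrArg Fin.val h; simp only at this; omega
      · intro h; have := congrArg Fin.val h; simp only at this; omega
      · intro h; have := congrArg Fin.val h; simp only at this; omega

theorem exists_ne_two (hm : 3 ≤ m) (l j : Fin m) : ∃ k : Fin m, k ≠ l ∧ k ≠ j := by
  obtain ⟨k, k', hk, hk', hkk'⟩ := exists_two_ne hm l
  by_cases h : k = j
  · exact ⟨k', hk', fun h' => hkk' (by rw [h, h'])⟩
  · exact ⟨k, hk, h⟩

theorem exists_ne_one (hm : 2 ≤ m) (l : Fin m) : ∃ k : Fin m, k ≠ l := by
  by_cases h0 : l.val = 0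
  · exact ⟨⟨1, by omega⟩, fun h => by have := congrArg Fin.val h; simp only at this; omega⟩
  · exact ⟨⟨0, by omega⟩, fun h => by have := congrArg Fin.val h; simp only at this; omega⟩

/-- congruence by a transvection, minus the identity -/
theorem congr_tv_sub (S : Matrix (Fin m) (Fin m) K) (hS : Sᵀ = S) (l : Fin m) (a : Fin m → K) :
    (1 + vecMulVec a (Pi.single l 1)) * S * (1 + vecMulVec a (Pi.single l 1))ᵀ - S
      = vecMulVec a (S.row l) + vecMulVec (S.row l) a + S l l • vecMulVec a a := by
  have hrow : Pi.single l (1 : K) ᵥ* S = S.row l := single_one_vecMul l S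
  have hcol : S *ᵥ Pi.single l (1 : K) = S.row l := by
    rw [mulVec_single_one]
    funext i
    exact congrFun (congrFun hS l) i
  rw [transpose_add, transpose_one, transpose_vecMulVec, Matrix.add_mul, Matrix.one_mul,
    Matrix.mul_add, Matrix.mul_one, Matrix.add_mul, vecMulVec_mul, hrow, mul_vecMulVec, hcol,
    vecMulVec_mul_vecMulVec, dotProduct_single_one, vecMulVec_smul, Matrix.row_apply]
  abel

theorem F_polar (r : Fin m → K) (s : K) (a b : Fin m → K) :
    (vecMulVec (a + b) r + vecMulVec r (a + b) + s • vecMulVec (a + b) (a + b))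
      - (vecMulVec a r + vecMulVec r a + s • vecMulVec a a)
      - (vecMulVec b r + vecMulVec r b + s • vecMulVec b b)
      = s • (vecMulVec a b + vecMulVec b a) := by
  simp only [add_vecMulVec, vecMulVec_add, smul_add]
  abel

theorem F_scal (r : Fin m → K) (s x : K) (a : Fin m → K) :
    (vecMulVec (x • a) r + vecMulVec r (x • a) + s • vecMulVec (x • a) (x • a))
      - x • (vecMulVec a r + vecMulVec r a + s • vecMulVec a a)
      = ((x * x - x) * s) • vecMulVec a a := by
  simp only [smul_vecMulVec, vecMulVec_smul, smul_add, smul_smul]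
  module

section Sub

variable (M : Submodule K (Matrix (Fin m) (Fin m) K))
  (hsymm : ∀ S ∈ M, Sᵀ = S)
  (hinv : ∀ (A : SLn m K) (S : Matrix (Fin m) (Fin m) K), S ∈ M → A.1 * S * A.1ᵀ ∈ M)

include hsymm hinv

theorem F_mem {S : Matrix (Fin m) (Fin m) K} (hS : S ∈ M) (l : Fin m) (a : Fin m → K)
    (ha : a l = 0) :
    vecMulVec a (S.row l) + vecMulVec (S.row l) a + S l l • vecMulVec a a ∈ M := by
  have hdot : (Pi.single l (1 : K)) ⬝ᵥ a = 0 := by rw [single_one_dotProduct, ha]
  have h := M.sub_mem (hinv (tv a (Pi.single l 1) hdot) S hS) hS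
  rw [tv_coe, congr_tv_sub S (hsymm S hS)] at h
  exact h

/-- a nonzero invariant subspace contains a long or a short root element -/
theorem exists_root [Fintype K] (hm : 2 ≤ m) (hex : m = 2 → 3 ≤ Fintype.card K) (hM : M ≠ ⊥) :
    (∃ a : Fin m, vecMulVec (Pi.single a (1 : K)) (Pi.single a 1) ∈ M) ∨
    (∃ a b : Fin m, a ≠ b ∧ vecMulVec (Pi.single a (1 : K)) (Pi.single b 1)
      + vecMulVec (Pi.single b (1 : K)) (Pi.single a 1) ∈ M) := by
  obtain ⟨S, hS, hS0⟩ := (Submodule.ne_bot_iff M).1 hM
  have hSs := hsymm S hS
  by_cases hd : ∃ l, S l l ≠ 0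
  · obtain ⟨l, hl⟩ := hd
    by_cases hm3 : 3 ≤ m
    · right
      obtain ⟨k, k', hk, hk', hkk'⟩ := exists_two_ne hm3 l
      refine ⟨k, k', hkk', ?_⟩
      have h1 := F_mem M hsymm hinv hS l (Pi.single k 1 + Pi.single k' 1) (by
        rw [Pi.add_apply, Pi.single_apply, Pi.single_apply, if_neg (Ne.symm hk),
          if_neg (Ne.symm hk'), add_zero])
      have h2 := F_mem M hsymm hinv hS l (Pi.single k 1) (by
        rw [Pi.single_apply, if_neg (Ne.symm hk)])
      have h3 := F_mem M hsymm hinv hS l (Pi.single k' 1) (by
        rw [Pi.single_apply, if_neg (Ne.symm hk')])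
      have h4 := M.smul_mem (S l l)⁻¹ (M.sub_mem (M.sub_mem h1 h2) h3)
      rw [F_polar, smul_smul, inv_mul_cancel₀ hl, one_smul] at h4
      exact h4
    · left
      have hq : 3 ≤ Fintype.card K := hex (by omega)
      obtain ⟨x, hx0, hx1⟩ : ∃ x : K, x ≠ 0 ∧ x ≠ 1 := by
        classical
        have hcard : ({0, 1} : Finset K).card < (Finset.univ : Finset K).card := by
          rw [Finset.card_univ]
          exact lt_of_le_of_lt (Finset.card_le_two) (by omega)
        obtain ⟨x, -, hx⟩ := Finset.exists_mem_notMem_of_card_lt_card hcard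
        rw [Finset.mem_insert, Finset.mem_singleton] at hx
        push Not at hx
        exact ⟨x, hx.1, hx.2⟩
      obtain ⟨k, hk⟩ := exists_ne_one hm l
      refine ⟨k, ?_⟩
      have h1 := F_mem M hsymm hinv hS l (x • Pi.single k 1) (by
        rw [Pi.smul_apply, Pi.single_apply, if_neg (Ne.symm hk), smul_zero])
      have h2 := F_mem M hsymm hinv hS l (Pi.single k 1) (by
        rw [Pi.single_apply, if_neg (Ne.symm hk)])
      have hne : (x * x - x) * S l l ≠ 0 := by
        apply mul_ne_zero _ hl
        have : x * x - x = x * (x - 1) := by ring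
        rw [this]
        exact mul_ne_zero hx0 (sub_ne_zero.2 hx1)
      have h4 := M.smul_mem ((x * x - x) * S l l)⁻¹ (M.sub_mem h1 (M.smul_mem x h2))
      rw [F_scal, smul_smul, inv_mul_cancel₀ hne, one_smul] at h4
      exact h4
  · push Not at hd
    right
    obtain ⟨j, l, hjl⟩ : ∃ j l, S j l ≠ 0 := by
      by_contra hcon
      push Not at hcon
      exact hS0 (Matrix.ext hcon)
    have hne : j ≠ l := by
      rintro rfl
      exact hjl (hd j)
    have hlj : S l j ≠ 0 := by
      have := congrFun (congrFun hSs l) j
      rw [Matrix.transpose_apply] at this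
      rw [← this]
      exact hjl
    by_cases hm3 : 3 ≤ m
    · obtain ⟨k, hkl, hkj⟩ := exists_ne_two hm3 l j
      refine ⟨l, k, Ne.symm hkl, ?_⟩
      have hN := F_mem M hsymm hinv hS l (Pi.single k 1) (by
        rw [Pi.single_apply, if_neg (Ne.symm hkl)])
      rw [hd l, zero_smul, add_zero] at hN
      have h' := F_mem M hsymm hinv hN j (Pi.single l 1) (by
        rw [Pi.single_apply, if_neg hne])
      have hNj : (vecMulVec (Pi.single k 1) (S.row l) + vecMulVec (S.row l) (Pi.single k 1)).row j
          = S l j • Pi.single k (1 : K) := by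
        funext y
        rw [Matrix.row_apply, Matrix.add_apply, vecMulVec_apply, vecMulVec_apply, Pi.single_apply,
          if_neg (Ne.symm hkj), zero_mul, zero_add, Pi.smul_apply, smul_eq_mul, Matrix.row_apply]
      have hNjj : (vecMulVec (Pi.single k 1) (S.row l) + vecMulVec (S.row l) (Pi.single k 1)) j j
          = 0 := by
        rw [Matrix.add_apply, vecMulVec_apply, vecMulVec_apply, Pi.single_apply,
          if_neg (Ne.symm hkj), zero_mul, mul_zero, add_zero]
      rw [hNjj, zero_smul, add_zero, hNj, vecMulVec_smul, smul_vecMulVec, ← smul_add] at h'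
      have h4 := M.smul_mem (S l j)⁻¹ h'
      rw [smul_smul, inv_mul_cancel₀ hlj, one_smul] at h4
      exact h4
    · refine ⟨j, l, hne, ?_⟩
      have hm2 : m = 2 := by omega
      have hall : ∀ x : Fin m, x = j ∨ x = l := by
        intro x
        have hx := x.2
        have hj := j.2
        have hl := l.2
        have hjl' : j.val ≠ l.val := fun h => hne (Fin.ext h)
        have : x.val = j.val ∨ x.val = l.val := by omega
        rcases this with h | h
        · left; exact Fin.ext h
        · right; exact Fin.ext h
      have hSeq : S = S j l • (vecMulVec (Pi.single j (1 : K)) (Pi.single l 1)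
          + vecMulVec (Pi.single l (1 : K)) (Pi.single j 1)) := by
        have hjl2 := congrFun (congrFun hSs j) l
        rw [Matrix.transpose_apply] at hjl2
        ext x y
        rw [Matrix.smul_apply, Matrix.add_apply, vecMulVec_apply, vecMulVec_apply,
          Pi.single_apply, Pi.single_apply, Pi.single_apply, Pi.single_apply]
        rcases hall x with rfl | rfl <;> rcases hall y with rfl | rfl
        · simp [hd, hne]
        · simp [hne, Ne.symm hne]
        · simp [hne, Ne.symm hne, hjl2]
        · simp [hd, Ne.symm hne]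
      have hS' : S j l • (vecMulVec (Pi.single j (1 : K)) (Pi.single l 1)
          + vecMulVec (Pi.single l (1 : K)) (Pi.single j 1)) ∈ M := by
        rw [← hSeq]; exact hS
      have h4 := M.smul_mem (S j l)⁻¹ hS'
      rw [smul_smul, inv_mul_cancel₀ hjl, one_smul] at h4
      exact h4

/-- an invariant subspace containing a long root element contains all symmetric matrices -/
theorem all_of_long (hm : 2 ≤ m) {a : Fin m}
    (ha : vecMulVec (Pi.single a (1 : K)) (Pi.single a 1) ∈ M)
    (S : Matrix (Fin m) (Fin m) K) (hS : Sᵀ = S) : S ∈ M := by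
  have h1 : ∀ v : Fin m → K, vecMulVec v v ∈ M := by
    intro v
    by_cases hv : v = 0
    · rw [hv, zero_vecMulVec]; exact M.zero_mem
    · obtain ⟨g, hg⟩ := Cfsg.Agent.Lib.Helper43.exists_sl_mulVec hm (Pi.single a (1 : K)) v (by
        intro h0
        have := congrFun h0 a
        rw [Pi.single_eq_same] at this
        exact one_ne_zero this) hv
      have h := hinv g _ ha
      rw [mul_vecMulVec, vecMulVec_mul, vecMul_transpose, hg] at h
      exact h
  have h2 : ∀ v w : Fin m → K, vecMulVec v w + vecMulVec w v ∈ M := by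
    intro v w
    have h := M.sub_mem (M.sub_mem (h1 (v + w)) (h1 v)) (h1 w)
    have : vecMulVec (v + w) (v + w) - vecMulVec v v - vecMulVec w w
        = vecMulVec v w + vecMulVec w v := by
      simp only [add_vecMulVec, vecMulVec_add]
      abel
    rw [this] at h
    exact h
  have h3 : ∀ L : Matrix (Fin m) (Fin m) K, L + Lᵀ ∈ M := by
    intro L
    induction L using Matrix.induction_on' with
    | h_zero => rw [transpose_zero, add_zero]; exact M.zero_mem
    | h_add p q hp hq =>
      have : p + q + (p + q)ᵀ = (p + pᵀ) + (q + qᵀ) := by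
        rw [transpose_add]; abel
      rw [this]
      exact M.add_mem hp hq
    | h_std_basis i j x =>
      have : Matrix.single i j x + (Matrix.single i j x)ᵀ
          = x • (vecMulVec (Pi.single i (1 : K)) (Pi.single j 1)
            + vecMulVec (Pi.single j (1 : K)) (Pi.single i 1)) := by
        rw [Matrix.transpose_single, ← single_eq_single_vecMulVec_single,
          ← single_eq_single_vecMulVec_single, smul_add, Matrix.smul_single, Matrix.smul_single,
          smul_eq_mul, mul_one]
      rw [this]
      exact M.smul_mem x (h2 _ _)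
  have h4 : ∀ d : Fin m → K, Matrix.diagonal d ∈ M := by
    intro d
    rw [← Matrix.sum_single_eq_diagonal]
    apply M.sum_mem
    intro i _
    have : Matrix.single i i (d i) = d i • vecMulVec (Pi.single i (1 : K)) (Pi.single i 1) := by
      rw [← single_eq_single_vecMulVec_single, Matrix.smul_single, smul_eq_mul, mul_one]
    rw [this]
    exact M.smul_mem _ (h1 _)
  have hdec : S = (Matrix.of (fun i j : Fin m => if i < j then S i j else 0)
      + (Matrix.of (fun i j : Fin m => if i < j then S i j else 0))ᵀ)
      + Matrix.diagonal (fun i => S i i) := by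
    ext i j
    rw [Matrix.add_apply, Matrix.add_apply, Matrix.transpose_apply, Matrix.of_apply,
      Matrix.of_apply]
    rcases lt_trichotomy i j with h | h | h
    · rw [if_pos h, if_neg (not_lt.2 h.le), Matrix.diagonal_apply_ne _ (ne_of_lt h), add_zero,
        add_zero]
    · subst h
      rw [if_neg (lt_irrefl _), Matrix.diagonal_apply_eq, add_zero, zero_add]
    · rw [if_neg (not_lt.2 h.le), if_pos h, Matrix.diagonal_apply_ne _ (ne_of_gt h), add_zero,
        zero_add]
      have := congrFun (congrFun hS i) j
      rw [Matrix.transpose_apply] at this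
      exact this.symm
  rw [hdec]
  exact M.add_mem (h3 _) (h4 _)

end Sub

end Cfsg.Agent.Lib.Helper86.SymMod
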