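import Mathlib
import Cfsg.Agent.Lib.Helper86.SpCent
import Cfsg.Agent.Lib.Helper86.SpMod
import Cfsg.Agent.Lib.Helper53.PGroups

set_option autoImplicit false
set_option linter.style.haveILetI false
set_option linter.unusedSectionVars false
set_option linter.dupNamespace false
set_option linter.unusedVariables false
set_option linter.unusedSimpArgs false

/-! # Strongly closed subgroups of the unitriangular subgroup of the symplectic group -/

namespace Cfsg.Agent.Lib.Helper86.Spn

open Matrix Cfsg.Agent.Lib.Helper86.SLn Cfsg.Agent.Lib.Helper86.SymMod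

variable {m : ℕ} {K : Type*} [Field K]

/-! ### more elements -/

/-- the dilation `[c 0; 0 c⁻¹]` -/
def dil (c : K) (hc : c ≠ 0) : Spn m K :=
  ⟨fromBlocks (c • 1) 0 0 (c⁻¹ • 1), (Cfsg.Agent.Lib.Helper13.blockUpper_symp _ 0 _).2
    ⟨by rw [Matrix.zero_mul, transpose_zero, Matrix.mul_zero], by
      rw [transpose_smul, transpose_one, smul_mul_smul_comm, Matrix.mul_one, mul_inv_cancel₀ hc,
        one_smul]⟩⟩

theorem dil_coe (c : K) (hc : c ≠ 0) :
    (dil c hc : Spn m K).1 = fromBlocks (c • 1) 0 0 (c⁻¹ • 1) := rfl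

/-- elements of the Siegel radical -/
theorem eq_rS_of_mem_bS {u : Spn m K} (hu : u ∈ uniSp m K (bS m)) :
    ∃ (S : Matrix (Fin m) (Fin m) K) (hS : Sᵀ = S), u = rS S hS := by
  have h11 : u.1.toBlocks₁₁ = 1 := by
    ext i j
    have := hu.2 (Sum.inl i) (Sum.inl j) rfl
    rw [Matrix.one_apply] at this
    show u.1 (Sum.inl i) (Sum.inl j) = _
    rw [this, Matrix.one_apply]
    simp
  have h22 : u.1.toBlocks₂₂ = 1 := by
    ext i j
    have := hu.2 (Sum.inr i) (Sum.inr j) rfl
    rw [Matrix.one_apply] at this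
    show u.1 (Sum.inr i) (Sum.inr j) = _
    rw [this, Matrix.one_apply]
    simp
  have h21 : u.1.toBlocks₂₁ = 0 := by
    ext i j
    exact hu.1 (show bS m (Sum.inl j) < bS m (Sum.inr i) from Nat.zero_lt_one)
  have hu1 : u.1 = fromBlocks 1 u.1.toBlocks₁₂ 0 1 := by
    have := (fromBlocks_toBlocks u.1).symm
    rw [h11, h22, h21] at this
    exact this
  have hsp := u.2
  rw [hu1, Cfsg.Agent.Lib.Helper13.blockUpper_symp] at hsp
  refine ⟨u.1.toBlocks₁₂, ?_, Subtype.ext hu1⟩
  have := hsp.1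
  rw [transpose_one, Matrix.mul_one, Matrix.one_mul] at this
  exact this.symm

theorem tv_inv' {n : ℕ} (a φ : Fin n → K) (h : φ ⬝ᵥ a = 0) :
    (tv a φ h)⁻¹ = tv (-a) φ (by rw [dotProduct_neg, h, neg_zero]) := by
  apply inv_eq_of_mul_eq_one_right
  apply Subtype.ext
  rw [Matrix.SpecialLinearGroup.coe_mul, tv_coe, tv_coe, Matrix.SpecialLinearGroup.coe_one,
    neg_vecMulVec, Matrix.mul_add, Matrix.mul_one, Matrix.mul_neg, Matrix.add_mul, Matrix.one_mul,
    vecMulVec_mul_vecMulVec, h, zero_smul, vecMulVec_zero]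
  abel

/-- the Weyl element of the long root `2 e_b` -/
def wl (b : Fin m) : Spn m K :=
  ⟨fromBlocks (1 - Matrix.single b b 1) (-Matrix.single b b 1) (Matrix.single b b 1)
    (1 - Matrix.single b b 1), by
    have hE1 : (Matrix.single b b (1 : K))ᵀ = Matrix.single b b 1 := Matrix.transpose_single b b 1
    have hE2 : Matrix.single b b (1 : K) * Matrix.single b b 1 = Matrix.single b b 1 := by
      rw [Matrix.single_mul_single_same, mul_one]
    rw [SymplecticGroup.fromBlocks_mem_iff]
    refine ⟨?_, ?_, ?_⟩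
    · rw [transpose_sub, transpose_one, hE1, Matrix.sub_mul, Matrix.one_mul, Matrix.mul_sub,
        Matrix.mul_one]
    · rw [transpose_neg, transpose_sub, transpose_one, hE1, Matrix.neg_mul, Matrix.mul_sub,
        Matrix.mul_one, Matrix.sub_mul, Matrix.one_mul, Matrix.mul_neg, hE2]
      abel
    · rw [transpose_sub, transpose_one, hE1, Matrix.mul_neg, Matrix.sub_mul, Matrix.one_mul,
        Matrix.mul_sub, Matrix.mul_one, hE2]
      abel⟩

theorem wl_coe (b : Fin m) : (wl b : Spn m K).1 =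
    fromBlocks (1 - Matrix.single b b 1) (-Matrix.single b b 1) (Matrix.single b b 1)
      (1 - Matrix.single b b 1) := rfl

theorem weyl_blocks (E V V' : Matrix (Fin m) (Fin m) K) (hEE : E * E = E) (hEV : E * V = 0)
    (hEV' : E * V' = V') (hVE : V * E = V) (hV'E : V' * E = 0) :
    fromBlocks (1 - E) (-E) E (1 - E) * fromBlocks 1 (-V + -V') 0 1
      = fromBlocks (1 + V) 0 0 (1 + -V') * fromBlocks (1 - E) (-E) E (1 - E) := by
  rw [fromBlocks_multiply, fromBlocks_multiply, fromBlocks_inj]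
  refine ⟨?_, ?_, ?_, ?_⟩
  · simp only [Matrix.mul_sub, Matrix.sub_mul, Matrix.mul_add, Matrix.add_mul, Matrix.mul_neg,
      Matrix.neg_mul, Matrix.mul_one, Matrix.one_mul, Matrix.mul_zero, Matrix.zero_mul,
      hEE, hEV, hEV', hVE, hV'E]
    abel
  · simp only [Matrix.mul_sub, Matrix.sub_mul, Matrix.mul_add, Matrix.add_mul, Matrix.mul_neg,
      Matrix.neg_mul, Matrix.mul_one, Matrix.one_mul, Matrix.mul_zero, Matrix.zero_mul,
      hEE, hEV, hEV', hVE, hV'E]
    abel
  · simp only [Matrix.mul_sub, Matrix.sub_mul, Matrix.mul_add, Matrix.add_mul, Matrix.mul_neg,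
      Matrix.neg_mul, Matrix.mul_one, Matrix.one_mul, Matrix.mul_zero, Matrix.zero_mul,
      hEE, hEV, hEV', hVE, hV'E]
    abel
  · simp only [Matrix.mul_sub, Matrix.sub_mul, Matrix.mul_add, Matrix.add_mul, Matrix.mul_neg,
      Matrix.neg_mul, Matrix.mul_one, Matrix.one_mul, Matrix.mul_zero, Matrix.zero_mul,
      hEE, hEV, hEV', hVE, hV'E]
    abel

/-- the Weyl element conjugates short root elements of the Siegel radical into the Levi
subgroup -/
theorem wl_conj (b : Fin m) (a : Fin m → K) (hdot : (Pi.single b (1 : K)) ⬝ᵥ a = 0)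
    (hS : (vecMulVec (-a) (Pi.single b (1 : K)) + vecMulVec (Pi.single b (1 : K)) (-a))ᵀ
      = vecMulVec (-a) (Pi.single b (1 : K)) + vecMulVec (Pi.single b (1 : K)) (-a)) :
    wl b * rS _ hS * (wl b)⁻¹ = levSL (tv a (Pi.single b 1) hdot) := by
  have hee : (Pi.single b (1 : K)) ⬝ᵥ (Pi.single b (1 : K)) = 1 := by
    rw [single_one_dotProduct, Pi.single_eq_same]
  have hae : a ⬝ᵥ (Pi.single b (1 : K)) = 0 := by rw [dotProduct_comm]; exact hdot
  rw [mul_inv_eq_iff_eq_mul]
  apply Subtype.ext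
  rw [sp_coe_mul, sp_coe_mul, rS_coe, levSL_coe, tv_inv', tv_coe, tv_coe, wl_coe,
    transpose_add, transpose_one, transpose_vecMulVec, neg_vecMulVec, vecMulVec_neg,
    single_eq_single_vecMulVec_single]
  apply weyl_blocks
  · rw [vecMulVec_mul_vecMulVec, hee, one_smul]
  · rw [vecMulVec_mul_vecMulVec, hdot, zero_smul, vecMulVec_zero]
  · rw [vecMulVec_mul_vecMulVec, hee, one_smul]
  · rw [vecMulVec_mul_vecMulVec, hee, one_smul]
  · rw [vecMulVec_mul_vecMulVec, hae, zero_smul, vecMulVec_zero]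

/-- decomposition of a unitriangular element -/
theorem uni_decomp {u : Spn m K} (hu : u ∈ uniSp m K (rk m)) :
    ∃ (A : SLn m K) (S : Matrix (Fin m) (Fin m) K) (hS : Sᵀ = S),
      A ∈ uniSL m K ∧ u = rS S hS * levSL A := by
  have hu' := mem_uniSp_rk.1 hu
  have h21 : u.1.toBlocks₂₁ = 0 := by
    ext i j
    apply hu'.1
    rw [rk_inl, rk_inr]
    have := i.2; have := j.2; omega
  obtain ⟨X, Q, Y, hX, hu1⟩ : ∃ X Q Y : Matrix (Fin m) (Fin m) K,
      u.1.toBlocks₁₁ = X ∧ u.1 = fromBlocks X Q 0 Y :=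
    ⟨_, _, _, rfl, by rw [← h21]; exact (fromBlocks_toBlocks u.1).symm⟩
  have hsp := u.2
  rw [hu1, Cfsg.Agent.Lib.Helper13.blockUpper_symp] at hsp
  have hXtri : X.BlockTriangular id := by
    intro i j hij
    rw [← hX]
    exact hu'.1 (show rk m (Sum.inl j) < rk m (Sum.inl i) from Fin.lt_def.1 hij)
  have hXdiag : ∀ i, X i i = 1 := by
    intro i
    rw [← hX]
    exact hu'.2 (Sum.inl i)
  have hdet : X.det = 1 := by
    rw [Matrix.det_of_isUpperTriangular hXtri]
    exact Finset.prod_eq_one (fun i _ => hXdiag i)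
  have hXY : Xᵀ * Y = 1 := by
    have h1 := congrArg Matrix.transpose hsp.2
    rw [transpose_mul, transpose_transpose, transpose_one] at h1
    exact mul_eq_one_comm.mp h1
  obtain ⟨A, hA⟩ : ∃ A : SLn m K, A.1 = X := ⟨⟨X, hdet⟩, rfl⟩
  have hinv : (A⁻¹ : SLn m K).1 = Yᵀ := by
    rw [coe_inv_eq, hA]
    exact Matrix.inv_eq_right_inv hsp.2
  refine ⟨A, Q * Xᵀ, ?_, ?_, ?_⟩
  · rw [transpose_mul, transpose_transpose]
    exact hsp.1.symm
  · exact mem_uniSL.2 ⟨fun i j hij => by rw [hA]; exact hXtri hij, fun i => by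
      rw [hA]; exact hXdiag i⟩
  · apply Subtype.ext
    rw [sp_coe_mul, rS_coe, levSL_coe, hinv, transpose_transpose, hu1, hA, fromBlocks_multiply]
    simp only [Matrix.one_mul, Matrix.mul_zero, Matrix.zero_mul, add_zero, zero_add]
    rw [Matrix.mul_assoc, hXY, Matrix.mul_one]

/-- a subgroup of `SL_n` containing the column transvections contains the unitriangular
group -/
theorem uniSL_le_of_tv {n : ℕ} (T : Subgroup (SLn n K))
    (htv : ∀ (kk : Fin n) (a : Fin n → K) (hdot : (Pi.single kk (1 : K)) ⬝ᵥ a = 0),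
      tv a (Pi.single kk (1 : K)) hdot ∈ uniSL n K → tv a (Pi.single kk (1 : K)) hdot ∈ T) :
    uniSL n K ≤ T := by
  have key : ∀ k : ℕ, ∀ u ∈ uniSL n K,
      (∀ i j : Fin n, k ≤ j.val → u.1 i j = (1 : Matrix (Fin n) (Fin n) K) i j) → u ∈ T := by
    intro k
    induction k with
    | zero =>
      intro u hu h
      have : u = 1 := by
        apply Subtype.ext
        ext i j
        exact h i j (Nat.zero_le _)
      rw [this]; exact one_mem _
    | succ k ih =>
      intro u hu h
      by_cases hk : k < n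
      · set kk : Fin n := ⟨k, hk⟩ with hkk
        set a : Fin n → K := fun i => if i < kk then u.1 i kk else 0 with ha
        have hdot : (Pi.single kk (1 : K)) ⬝ᵥ a = 0 := by
          rw [single_dotProduct, one_mul, ha]
          simp
        have hmU : tv a (Pi.single kk (1 : K)) hdot ∈ uniSL n K := by
          apply tv_mem_uniSL
          intro i j hji
          by_cases hi : i < kk
          · rw [Pi.single_apply, if_neg (by intro hj; rw [hj] at hji; exact absurd hi (not_lt.2 hji)),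
              mul_zero]
          · rw [ha]; simp only [if_neg hi, zero_mul]
        have hmT := htv kk a hdot hmU
        -- the row `kk` of `u`
        have hrow : (Pi.single kk (1 : K)) ᵥ* u.1 = Pi.single kk (1 : K) := by
          rw [single_one_vecMul]
          funext j
          show u.1 kk j = _
          rcases lt_trichotomy j kk with hj | hj | hj
          · rw [hu.1 hj, Pi.single_apply, if_neg (ne_of_lt hj)]
          · rw [hj, hu.2, Pi.single_eq_same]
          · rw [h kk j (by rw [Fin.lt_def] at hj; show k + 1 ≤ j.val; exact hj),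
              Matrix.one_apply_ne (ne_of_lt hj), Pi.single_apply, if_neg (ne_of_gt hj)]
        have hprod : (tv a (Pi.single kk (1 : K)) hdot : SLn n K).1 *
            (u.1 - vecMulVec a (Pi.single kk (1 : K))) = u.1 := by
          rw [tv_coe, add_mul, one_mul, mul_sub, vecMulVec_mul, vecMulVec_mul_vecMulVec, hrow,
            hdot, zero_smul, vecMulVec_zero, sub_zero]
          abel
        have hu' : ((tv a (Pi.single kk (1 : K)) hdot)⁻¹ * u : SLn n K).1
            = u.1 - vecMulVec a (Pi.single kk (1 : K)) := by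
          have h1 : ((tv a (Pi.single kk (1 : K)) hdot)⁻¹ * u : SLn n K).1
              = ((tv a (Pi.single kk (1 : K)) hdot)⁻¹ : SLn n K).1 *
                ((tv a (Pi.single kk (1 : K)) hdot : SLn n K).1 *
                  (u.1 - vecMulVec a (Pi.single kk (1 : K)))) := by
            rw [hprod, Matrix.SpecialLinearGroup.coe_mul]
          rw [h1, ← mul_assoc, ← Matrix.SpecialLinearGroup.coe_mul, inv_mul_cancel,
            Matrix.SpecialLinearGroup.coe_one, one_mul]
        have hu'U : (tv a (Pi.single kk (1 : K)) hdot)⁻¹ * u ∈ uniSL n K :=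
          mul_mem (inv_mem hmU) hu
        have hu'T : (tv a (Pi.single kk (1 : K)) hdot)⁻¹ * u ∈ T := by
          apply ih _ hu'U
          intro i j hkj
          rw [hu', Matrix.sub_apply, vecMulVec_apply]
          by_cases hj : j = kk
          · rw [hj, Pi.single_eq_same, mul_one, ha]
            rcases lt_trichotomy i kk with hi | hi | hi
            · simp only [if_pos hi]
              rw [sub_self, Matrix.one_apply_ne (ne_of_lt hi)]
            · rw [hi]
              simp only [lt_irrefl, if_false]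
              rw [sub_zero, hu.2, Matrix.one_apply_eq]
            · simp only [if_neg (not_lt.2 hi.le)]
              rw [sub_zero, hu.1 hi, Matrix.one_apply_ne (ne_of_gt hi)]
          · rw [Pi.single_apply, if_neg hj, mul_zero, sub_zero]
            apply h
            have : j.val ≠ k := fun h' => hj (Fin.ext h')
            omega
        have : u = tv a (Pi.single kk (1 : K)) hdot * ((tv a (Pi.single kk (1 : K)) hdot)⁻¹ * u) := by
          group
        rw [this]
        exact mul_mem hmT hu'T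
      · apply ih u hu
        intro i j hkj
        exfalso
        have := j.2
        omega
  intro u hu
  exact key n u hu (fun i j hj => by have := j.2; omega)

/-! ### the module of a strongly closed subgroup -/

/-- the symmetric matrices whose Siegel elements lie in `T` -/
def InT (T : Subgroup (Spn m K)) (S : Matrix (Fin m) (Fin m) K) : Prop :=
  ∃ hS : Sᵀ = S, rS S hS ∈ T

theorem inT_zero (T : Subgroup (Spn m K)) : InT T 0 :=
  ⟨transpose_zero, by rw [rS_zero]; exact T.one_mem⟩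

theorem inT_add {T : Subgroup (Spn m K)} {S S' : Matrix (Fin m) (Fin m) K} (h : InT T S)
    (h' : InT T S') : InT T (S + S') := by
  obtain ⟨hS, h⟩ := h
  obtain ⟨hS', h'⟩ := h'
  have h1 := T.mul_mem h h'
  rw [rS_mul] at h1
  exact ⟨_, h1⟩

theorem inT_neg {T : Subgroup (Spn m K)} {S : Matrix (Fin m) (Fin m) K} (h : InT T S) :
    InT T (-S) := by
  obtain ⟨hS, h⟩ := h
  have h1 := T.inv_mem h
  rw [rS_inv] at h1
  exact ⟨_, h1⟩

section Closed

variable (T : Subgroup (Spn m K))
  (hcl : ∀ x ∈ T, ∀ g : Spn m K, g * x * g⁻¹ ∈ uniSp m K (rk m) → g * x * g⁻¹ ∈ T)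

include hcl

theorem inT_conj {S : Matrix (Fin m) (Fin m) K} (h : InT T S) (g : Spn m K)
    (hg : g.1.toBlocks₂₁ = 0) : InT T (g.1.toBlocks₁₁ * S * (g.1.toBlocks₁₁)ᵀ) := by
  obtain ⟨hS, h⟩ := h
  refine ⟨conj_symm _ S hS, ?_⟩
  have h1 := hcl _ h g (by rw [conj_rS g hg S hS]; exact rS_mem_uni _ _)
  rw [conj_rS g hg S hS] at h1
  exact h1

theorem inT_sq {S : Matrix (Fin m) (Fin m) K} (h : InT T S) (y : K) : InT T ((y * y) • S) := by
  by_cases hy : y = 0
  · rw [hy, zero_mul, zero_smul]; exact inT_zero T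
  · have h1 := inT_conj T hcl h (dil y hy) (by rw [dil_coe, toBlocks_fromBlocks₂₁])
    rw [dil_coe, toBlocks_fromBlocks₁₁, transpose_smul, transpose_one, Matrix.smul_mul,
      Matrix.one_mul, Matrix.mul_smul, Matrix.mul_one, smul_smul] at h1
    exact h1

theorem inT_smul [Finite K] {S : Matrix (Fin m) (Fin m) K} (h : InT T S) (c : K) :
    InT T (c • S) := by
  obtain ⟨y, z, rfl⟩ := diff_of_squares c
  rw [sub_smul, sub_eq_add_neg]
  exact inT_add (inT_sq T hcl h y) (inT_neg (inT_sq T hcl h z))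

/-- the submodule of symmetric matrices attached to a strongly closed subgroup -/
def sieg [Finite K] : Submodule K (Matrix (Fin m) (Fin m) K) where
  carrier := {S | InT T S}
  add_mem' := fun h h' => inT_add h h'
  zero_mem' := inT_zero T
  smul_mem' := fun c S h => inT_smul T hcl h c

theorem sieg_symm [Finite K] : ∀ S ∈ sieg T hcl, Sᵀ = S := fun S h => h.1

theorem sieg_inv [Finite K] (A : SLn m K) (S : Matrix (Fin m) (Fin m) K) (h : S ∈ sieg T hcl) :
    A.1 * S * A.1ᵀ ∈ sieg T hcl := by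
  have h1 := inT_conj T hcl h (levSL A) (by rw [levSL_coe, toBlocks_fromBlocks₂₁])
  rw [levSL_coe, toBlocks_fromBlocks₁₁] at h1
  exact h1

theorem uni_le_normalizer (hTU : T ≤ uniSp m K (rk m)) :
    uniSp m K (rk m) ≤ Subgroup.normalizer (T : Set (Spn m K)) := by
  intro u hu
  rw [Subgroup.mem_normalizer_iff]
  intro x
  constructor
  · intro hx
    exact hcl x hx u (mul_mem (mul_mem hu (hTU hx)) (inv_mem hu))
  · intro hx
    have h1 : u⁻¹ * (u * x * u⁻¹) * u⁻¹⁻¹ = x := by group
    have h2 := hcl _ hx u⁻¹ (by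
      rw [h1]
      have h3 : x = u⁻¹ * (u * x * u⁻¹) * u := by group
      rw [h3]
      exact mul_mem (mul_mem (inv_mem hu) (hTU hx)) hu)
    rwa [h1] at h2

theorem sieg_ne_bot [Fintype K] (p : ℕ) [Fact p.Prime] [CharP K p] (hm : 1 ≤ m)
    (hTU : T ≤ uniSp m K (rk m)) (hT : T ≠ ⊥) : sieg T hcl ≠ ⊥ := by
  obtain ⟨w, hwT, hw1, hwc⟩ := Cfsg.Agent.Lib.Helper53.exists_mem_center_of_normal_subgroup
    (uniSp_isPGroup (m := m) (K := K) p) hTU (uni_le_normalizer T hcl hTU) hT
  obtain ⟨c, hc, h1, h2⟩ := cent_siegel hm (g := w)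
    (fun S hS => (hwc _ (rS_mem_uni S hS)).symm)
  have hc1 : c = 1 := by
    have h3 := h2 (Sum.inl ⟨0, by omega⟩) (Sum.inl ⟨0, by omega⟩) rfl
    rw [if_pos rfl, (mem_uniSp_rk.1 (hTU hwT)).2] at h3
    exact h3.symm
  subst hc1
  have hwS : w ∈ uniSp m K (bS m) :=
    ⟨fun x y h => h1 x y h, fun x y h => by rw [h2 x y h, Matrix.one_apply]⟩
  obtain ⟨S, hS, rfl⟩ := eq_rS_of_mem_bS hwS
  intro hbot
  have hmem : S ∈ sieg T hcl := ⟨hS, hwT⟩
  rw [hbot, Submodule.mem_bot] at hmem
  apply hw1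
  rw [← rS_zero]
  exact rS_congr hmem _ _

theorem comm_inT (hTU : T ≤ uniSp m K (rk m)) {y : Spn m K} (hy : y ∈ T)
    (hy21 : y.1.toBlocks₂₁ = 0) (S : Matrix (Fin m) (Fin m) K) (hS : Sᵀ = S) :
    InT T (y.1.toBlocks₁₁ * S * (y.1.toBlocks₁₁)ᵀ + -S) := by
  have hsU : rS S hS ∈ uniSp m K (rk m) := rS_mem_uni S hS
  have h1 : rS S hS * y⁻¹ * (rS S hS)⁻¹ ∈ T :=
    hcl _ (T.inv_mem hy) _ (mul_mem (mul_mem hsU (inv_mem (hTU hy))) (inv_mem hsU))
  have h2 : y * (rS S hS * y⁻¹ * (rS S hS)⁻¹) ∈ T := T.mul_mem hy h1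
  have h3 : y * (rS S hS * y⁻¹ * (rS S hS)⁻¹) = (y * rS S hS * y⁻¹) * (rS S hS)⁻¹ := by group
  rw [h3, conj_rS y hy21 S hS, rS_inv, rS_mul] at h2
  exact ⟨_, h2⟩

theorem long_of_short [Finite K] (hTU : T ≤ uniSp m K (rk m)) {a b : Fin m} (hab : a < b)
    (h : vecMulVec (Pi.single a (1 : K)) (Pi.single b 1)
      + vecMulVec (Pi.single b (1 : K)) (Pi.single a 1) ∈ sieg T hcl) :
    vecMulVec (Pi.single a (1 : K)) (Pi.single a 1) ∈ sieg T hcl := by
  have hdot : (Pi.single b (1 : K)) ⬝ᵥ (-(Pi.single a (1 : K))) = 0 := by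
    rw [dotProduct_neg, single_one_dotProduct, Pi.single_apply, if_neg (ne_of_gt hab), neg_zero]
  have hx : InT T (vecMulVec (-(-(Pi.single a (1 : K)))) (Pi.single b 1)
      + vecMulVec (Pi.single b (1 : K)) (-(-(Pi.single a 1)))) := by
    rw [neg_neg]; exact h
  obtain ⟨hS, hxT⟩ := hx
  have hyU : levSL (tv (-(Pi.single a (1 : K))) (Pi.single b 1) hdot) ∈ uniSp m K (rk m) := by
    apply levSL_mem_uni
    apply tv_mem_uniSL
    intro i j hji
    rw [Pi.neg_apply, Pi.single_apply, Pi.single_apply]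
    by_cases hi : i = a
    · by_cases hj : j = b
      · exfalso; rw [hi, hj] at hji; exact absurd hab (not_lt.2 hji)
      · rw [if_neg hj, mul_zero]
    · rw [if_neg hi, neg_zero, zero_mul]
  have hyT : levSL (tv (-(Pi.single a (1 : K))) (Pi.single b 1) hdot) ∈ T := by
    rw [← wl_conj b _ hdot hS]
    apply hcl _ hxT
    rw [wl_conj b _ hdot hS]
    exact hyU
  have hE : (vecMulVec (Pi.single b (1 : K)) (Pi.single b 1))ᵀ
      = vecMulVec (Pi.single b (1 : K)) (Pi.single b 1) := transpose_vecMulVec _ _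
  have h5 := comm_inT T hcl hTU hyT (by rw [levSL_coe, toBlocks_fromBlocks₂₁]) _ hE
  rw [levSL_coe, toBlocks_fromBlocks₁₁, tv_coe, ← sub_eq_add_neg, congr_tv_sub _ hE] at h5
  have hrow : (vecMulVec (Pi.single b (1 : K)) (Pi.single b 1)).row b = Pi.single b 1 := by
    funext j
    rw [Matrix.row_apply, vecMulVec_apply, Pi.single_eq_same, one_mul]
  have hbb : (vecMulVec (Pi.single b (1 : K)) (Pi.single b 1)) b b = 1 := by
    rw [vecMulVec_apply, Pi.single_eq_same, one_mul]
  rw [hrow, hbb, one_smul, neg_vecMulVec, vecMulVec_neg, neg_vecMulVec, vecMulVec_neg,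
    neg_neg] at h5
  have h6 := inT_add h5 h
  have h7 : -vecMulVec (Pi.single a (1 : K)) (Pi.single b 1)
      + -vecMulVec (Pi.single b (1 : K)) (Pi.single a 1)
      + vecMulVec (Pi.single a (1 : K)) (Pi.single a 1)
      + (vecMulVec (Pi.single a (1 : K)) (Pi.single b 1)
        + vecMulVec (Pi.single b (1 : K)) (Pi.single a 1))
      = vecMulVec (Pi.single a (1 : K)) (Pi.single a 1) := by abel
  rw [h7] at h6
  exact h6

theorem inT_all [Fintype K] (p : ℕ) [Fact p.Prime] [CharP K p] (hm : 2 ≤ m)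
    (hex : m = 2 → 3 ≤ Fintype.card K) (hTU : T ≤ uniSp m K (rk m)) (hT : T ≠ ⊥)
    (S : Matrix (Fin m) (Fin m) K) (hS : Sᵀ = S) : InT T S := by
  have hne := sieg_ne_bot T hcl p (by omega) hTU hT
  have hlong : ∃ a : Fin m, vecMulVec (Pi.single a (1 : K)) (Pi.single a 1) ∈ sieg T hcl := by
    rcases exists_root (sieg T hcl) (sieg_symm T hcl) (sieg_inv T hcl) hm hex hne with
      h | ⟨a, b, hab, h⟩
    · exact h
    · rcases lt_or_gt_of_ne hab with hlt | hlt
      · exact ⟨a, long_of_short T hcl hTU hlt h⟩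
      · exact ⟨b, long_of_short T hcl hTU hlt (by rw [add_comm]; exact h)⟩
  obtain ⟨a, ha⟩ := hlong
  exact all_of_long (sieg T hcl) (sieg_symm T hcl) (sieg_inv T hcl) hm ha S hS

/-- a nontrivial strongly closed subgroup of the unitriangular subgroup of `Sp_{2m}(K)` is the
whole unitriangular subgroup -/
theorem eq_uniSp_of_closed [Fintype K] (p : ℕ) [Fact p.Prime] [CharP K p] (hm : 2 ≤ m)
    (hex : m = 2 → 3 ≤ Fintype.card K) (hTU : T ≤ uniSp m K (rk m)) (hT : T ≠ ⊥) :
    T = uniSp m K (rk m) := by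
  apply le_antisymm hTU
  have hall := inT_all T hcl p hm hex hTU hT
  have hlev : uniSL m K ≤ T.comap levSL := by
    apply uniSL_le_of_tv
    intro kk a hdot hU
    show levSL (tv a (Pi.single kk 1) hdot) ∈ T
    have hsym : (vecMulVec (-a) (Pi.single kk (1 : K)) + vecMulVec (Pi.single kk (1 : K)) (-a))ᵀ
        = vecMulVec (-a) (Pi.single kk (1 : K)) + vecMulVec (Pi.single kk (1 : K)) (-a) := by
      rw [transpose_add, transpose_vecMulVec, transpose_vecMulVec, add_comm]
    obtain ⟨hS, hxT⟩ := hall _ hsym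
    rw [← wl_conj kk a hdot hS]
    apply hcl _ hxT
    rw [wl_conj kk a hdot hS]
    exact levSL_mem_uni hU
  intro u hu
  obtain ⟨A, S, hS, hA, rfl⟩ := uni_decomp hu
  obtain ⟨hS', hST⟩ := hall S hS
  exact T.mul_mem hST (hlev hA)

end Closed

end Cfsg.Agent.Lib.Helper86.Spn
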