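import Mathlib
import Cfsg.Agent.Lib.Helper86.SpClosed
import Cfsg.Agent.Lib.Helper86.SLPar
import Cfsg.Agent.Lib.Helper5.SLGen

set_option autoImplicit false
set_option linter.style.haveILetI false
set_option linter.unusedSectionVars false
set_option linter.dupNamespace false
set_option linter.unusedVariables false
set_option linter.unusedSimpArgs false

/-! # The center and the generation of the Borel subgroup of the symplectic group -/

namespace Cfsg.Agent.Lib.Helper86.Spn

open Matrix Cfsg.Agent.Lib.Helper86.SLn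

variable {m : ℕ} {K : Type*} [Field K]

/-! ### the center -/

/-- central elements are scalars -/
theorem center_coe (hm : 1 ≤ m) {z : Spn m K} (hz : z ∈ Subgroup.center (Spn m K)) :
    ∃ c : K, c * c = 1 ∧ z.1 = c • 1 := by
  have hcomm : ∀ g : Spn m K, z * g = g * z := fun g => (Subgroup.mem_center_iff.1 hz g).symm
  obtain ⟨c, hc, h1, h2⟩ := cent_siegel hm (g := z) (fun S hS => hcomm _)
  refine ⟨c, hc, ?_⟩
  have h11 : z.1.toBlocks₁₁ = c • 1 := by
    ext i j
    show z.1 (Sum.inl i) (Sum.inl j) = _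
    rw [h2 (Sum.inl i) (Sum.inl j) rfl, Matrix.smul_apply, Matrix.one_apply, smul_eq_mul]
    by_cases hij : i = j
    · rw [if_pos (by rw [hij]), if_pos hij, mul_one]
    · rw [if_neg (fun h' => hij (Sum.inl_injective h')), if_neg hij, mul_zero]
  have h22 : z.1.toBlocks₂₂ = c • 1 := by
    ext i j
    show z.1 (Sum.inr i) (Sum.inr j) = _
    rw [h2 (Sum.inr i) (Sum.inr j) rfl, Matrix.smul_apply, Matrix.one_apply, smul_eq_mul]
    by_cases hij : i = j
    · rw [if_pos (by rw [hij]), if_pos hij, mul_one]
    · rw [if_neg (fun h' => hij (Sum.inr_injective h')), if_neg hij, mul_zero]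
  have h21 : z.1.toBlocks₂₁ = 0 := by
    ext i j
    exact h1 _ _ (show bS m (Sum.inl j) < bS m (Sum.inr i) from Nat.zero_lt_one)
  have hz1 : z.1 = fromBlocks (c • 1) z.1.toBlocks₁₂ 0 (c • 1) := by
    have := (fromBlocks_toBlocks z.1).symm
    rw [h11, h22, h21] at this
    exact this
  have h12 : z.1.toBlocks₁₂ = 0 := by
    ext i j
    have h := congrArg Subtype.val (hcomm (wl j))
    rw [sp_coe_mul, sp_coe_mul, wl_coe, hz1, fromBlocks_multiply, fromBlocks_multiply,
      fromBlocks_inj] at h
    have h' := h.1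
    rw [Matrix.smul_mul, Matrix.one_mul, Matrix.mul_smul, Matrix.mul_one, Matrix.mul_zero,
      add_zero, add_eq_left] at h'
    have h'' := congrFun (congrFun h' i) j
    rw [Matrix.mul_single_apply_same, mul_one] at h''
    exact h''
  rw [hz1, h12, ← fromBlocks_one, fromBlocks_smul, smul_zero]

/-- the center of `Sp_{2m}(K)` has no `p`-torsion in characteristic `p` -/
theorem center_pfree (p : ℕ) [Fact p.Prime] [CharP K p] (hm : 1 ≤ m) {z : Spn m K}
    (hz : z ∈ Subgroup.center (Spn m K)) (k : ℕ) (hk : z ^ (p ^ k) = 1) : z = 1 := by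
  obtain ⟨c, hc, hzc⟩ := center_coe hm hz
  have h1 : c ^ (p ^ k) = 1 := by
    have h2 := congrArg (fun M : Spn m K => M.1 (Sum.inl (⟨0, by omega⟩ : Fin m))
      (Sum.inl (⟨0, by omega⟩ : Fin m))) hk
    simp only [sp_coe_pow, sp_coe_one] at h2
    rw [hzc, smul_pow, one_pow, Matrix.smul_apply, Matrix.one_apply_eq, smul_eq_mul, mul_one]
      at h2
    exact h2
  have h2 : (c - 1) ^ (p ^ k) = 0 := by rw [sub_pow_char_pow, h1, one_pow, sub_self]
  have h3 : c = 1 := sub_eq_zero.1 (eq_zero_of_pow_eq_zero h2)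
  apply Subtype.ext
  rw [hzc, h3, one_smul]
  rfl

/-! ### the root `SL_2` of a long root -/

/-- the function with value `a` at `i` and `b` elsewhere -/
def dg (i : Fin m) (a b : K) : Fin m → K := fun k => if k = i then a else b

/-- the root `SL_2` of the long root `2 e_i` -/
def rootHom (i : Fin m) : SLn 2 K →* Spn m K where
  toFun g := ⟨fromBlocks (diagonal (dg i (g.1 0 0) 1)) (diagonal (dg i (g.1 0 1) 0))
      (diagonal (dg i (g.1 1 0) 0)) (diagonal (dg i (g.1 1 1) 1)), by
    rw [SymplecticGroup.fromBlocks_mem_iff]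
    simp only [diagonal_transpose, diagonal_mul_diagonal]
    refine ⟨?_, ?_, ?_⟩
    · congr 1
      funext k
      ring
    · congr 1
      funext k
      ring
    · rw [diagonal_sub, ← diagonal_one]
      congr 1
      funext k
      have h := g.2
      rw [Matrix.det_fin_two] at h
      simp only [dg]
      split_ifs
      · linear_combination h
      · ring⟩
  map_one' := by
    apply Subtype.ext
    show fromBlocks (diagonal (dg i ((1 : SLn 2 K).1 0 0) 1)) (diagonal (dg i ((1 : SLn 2 K).1 0 1) 0))
      (diagonal (dg i ((1 : SLn 2 K).1 1 0) 0)) (diagonal (dg i ((1 : SLn 2 K).1 1 1) 1)) = 1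
    have h1 : dg i (1 : K) 1 = fun _ => 1 := by funext k; simp [dg]
    have h0 : dg i (0 : K) 0 = fun _ => 0 := by funext k; simp [dg]
    rw [Matrix.SpecialLinearGroup.coe_one, Matrix.one_apply_eq, Matrix.one_apply_eq,
      Matrix.one_apply_ne (by decide), Matrix.one_apply_ne (by decide), h1, h0, diagonal_one,
      diagonal_zero, fromBlocks_one]
  map_mul' g h := by
    apply Subtype.ext
    show fromBlocks (diagonal (dg i ((g * h).1 0 0) 1)) (diagonal (dg i ((g * h).1 0 1) 0))
        (diagonal (dg i ((g * h).1 1 0) 0)) (diagonal (dg i ((g * h).1 1 1) 1))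
      = fromBlocks (diagonal (dg i (g.1 0 0) 1)) (diagonal (dg i (g.1 0 1) 0))
          (diagonal (dg i (g.1 1 0) 0)) (diagonal (dg i (g.1 1 1) 1)) *
        fromBlocks (diagonal (dg i (h.1 0 0) 1)) (diagonal (dg i (h.1 0 1) 0))
          (diagonal (dg i (h.1 1 0) 0)) (diagonal (dg i (h.1 1 1) 1))
    rw [fromBlocks_multiply]
    simp only [diagonal_mul_diagonal, diagonal_add, Matrix.SpecialLinearGroup.coe_mul,
      Matrix.mul_apply, Fin.sum_univ_two]
    congr 1
    · congr 1; funext k; simp only [dg]; split_ifs <;> ring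
    · congr 1; funext k; simp only [dg]; split_ifs <;> ring
    · congr 1; funext k; simp only [dg]; split_ifs <;> ring
    · congr 1; funext k; simp only [dg]; split_ifs <;> ring

theorem rootHom_coe (i : Fin m) (g : SLn 2 K) : (rootHom i g : Spn m K).1 =
    fromBlocks (diagonal (dg i (g.1 0 0) 1)) (diagonal (dg i (g.1 0 1) 0))
      (diagonal (dg i (g.1 1 0) 0)) (diagonal (dg i (g.1 1 1) 1)) := rfl

theorem rootHom_apply_inl (i : Fin m) (g : SLn 2 K) (j : Fin m) :
    (rootHom i g : Spn m K).1 (Sum.inl j) (Sum.inl j) = if j = i then g.1 0 0 else 1 := by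
  rw [rootHom_coe, fromBlocks_apply₁₁, diagonal_apply_eq]
  rfl

theorem rootHom_mem_bH (i : Fin m) (hi : i.val ≠ 0) (g : SLn 2 K) :
    rootHom i g ∈ triSp m K (bH m) := by
  rw [mem_triSp]
  rintro (a | a) (b | b) hlt
  · rw [rootHom_coe, fromBlocks_apply₁₁, diagonal_apply_ne]
    rintro rfl; exact lt_irrefl _ hlt
  · exfalso
    rw [bH_inl, bH_inr] at hlt
    split_ifs at hlt <;> omega
  · rw [rootHom_coe, fromBlocks_apply₂₁]
    by_cases hab : a = b
    · subst hab
      rw [diagonal_apply_eq]
      show (if a = i then _ else (0 : K)) = 0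
      rw [if_neg]
      rintro rfl
      rw [bH_inl, bH_inr, if_neg hi, if_neg hi] at hlt
      exact lt_irrefl _ hlt
    · rw [diagonal_apply_ne _ hab]
  · rw [rootHom_coe, fromBlocks_apply₂₂, diagonal_apply_ne]
    rintro rfl; exact lt_irrefl _ hlt

theorem rootHom_mem_tri (i : Fin m) (g : SLn 2 K) (hg : g.1 1 0 = 0) :
    rootHom i g ∈ triSp m K (rk m) := by
  rw [mem_triSp]
  rintro (a | a) (b | b) hlt
  · rw [rootHom_coe, fromBlocks_apply₁₁, diagonal_apply_ne]
    rintro rfl; exact lt_irrefl _ hlt
  · exfalso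
    rw [rk_inl, rk_inr] at hlt
    have := a.2; have := b.2; omega
  · rw [rootHom_coe, fromBlocks_apply₂₁, hg]
    by_cases hab : a = b
    · subst hab
      rw [diagonal_apply_eq]
      show (if a = i then (0 : K) else 0) = 0
      rw [ite_self]
    · rw [diagonal_apply_ne _ hab]
  · rw [rootHom_coe, fromBlocks_apply₂₂, diagonal_apply_ne]
    rintro rfl; exact lt_irrefl _ hlt

/-! ### Levi elements -/

theorem levSL_mem_tri {A : SLn m K} (hA : A ∈ upperSL m K) : levSL A ∈ triSp m K (rk m) := by
  have hA' := (upperSL m K).inv_mem hA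
  rw [mem_upperSL] at hA hA'
  rw [mem_triSp]
  rintro (i | i) (j | j) h
  · rw [levSL_coe, fromBlocks_apply₁₁]
    exact hA i j (by rw [rk_inl, rk_inl] at h; exact Fin.lt_def.2 h)
  · rfl
  · rfl
  · rw [levSL_coe, fromBlocks_apply₂₂, Matrix.transpose_apply]
    apply hA' j i
    rw [rk_inr, rk_inr] at h
    rw [Fin.lt_def]
    have := i.2; have := j.2
    omega

theorem levSL_apply_inl (A : SLn m K) (j : Fin m) :
    (levSL A : Spn m K).1 (Sum.inl j) (Sum.inl j) = A.1 j j := by
  rw [levSL_coe, fromBlocks_apply₁₁]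

/-! ### generation of the Borel subgroup -/

/-- diagonal entries of a triangular element -/
theorem tri_diag_inr {b : Spn m K} (hb : b ∈ triSp m K (rk m)) (i : Fin m) :
    b.1 (Sum.inl i) (Sum.inl i) * b.1 (Sum.inr i) (Sum.inr i) = 1 := by
  have h21 : b.1.toBlocks₂₁ = 0 := by
    ext a c
    apply hb
    rw [rk_inl, rk_inr]
    have := a.2; have := c.2; omega
  have hb1 : b.1 = fromBlocks b.1.toBlocks₁₁ b.1.toBlocks₁₂ 0 b.1.toBlocks₂₂ := by
    have := (fromBlocks_toBlocks b.1).symm
    rw [h21] at this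
    exact this
  have hsp := b.2
  rw [hb1, Cfsg.Agent.Lib.Helper13.blockUpper_symp] at hsp
  have h := congrFun (congrFun hsp.2 i) i
  rw [Matrix.mul_apply, Matrix.one_apply_eq, Finset.sum_eq_single i] at h
  · exact h
  · intro k _ hki
    rw [Matrix.transpose_apply]
    rcases lt_or_gt_of_ne hki with hlt | hgt
    · have : b.1.toBlocks₁₁ i k = 0 :=
        hb (show rk m (Sum.inl k) < rk m (Sum.inl i) from Fin.lt_def.1 hlt)
      rw [this, zero_mul]
    · have : b.1.toBlocks₂₂ i k = 0 := by
        apply hb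
        rw [rk_inr, rk_inr]
        have := Fin.lt_def.1 hgt
        have := i.2; have := k.2
        omega
      rw [this, mul_zero]
  · intro h'; exact absurd (Finset.mem_univ i) h'

/-- the generators of the Borel subgroup -/
def triGens (m : ℕ) (K : Type*) [Field K] : Set (Spn m K) :=
  {d | d ∈ uniSp m K (rk m) ∨
    (∃ (i j : Fin m) (hij : i ≠ j) (c : K) (hc : c ≠ 0),
      d = levSL (Matrix.SpecialLinearGroup.diag2n hij c hc)) ∨
    (∃ (i : Fin m) (c : K) (hc : c ≠ 0), i.val ≠ 0 ∧
      d = rootHom i (Matrix.SpecialLinearGroup.diag2n (zero_ne_one : (0 : Fin 2) ≠ 1) c hc))}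

theorem diag2_apply_zero (c : K) (hc : c ≠ 0) :
    (Matrix.SpecialLinearGroup.diag2n (zero_ne_one : (0 : Fin 2) ≠ 1) c hc).1 0 0 = c := by
  rw [Matrix.SpecialLinearGroup.diag2n_coe, diagonal_apply_eq, if_pos rfl]

theorem diag2_apply_one_zero (c : K) (hc : c ≠ 0) :
    (Matrix.SpecialLinearGroup.diag2n (zero_ne_one : (0 : Fin 2) ≠ 1) c hc).1 1 0 = 0 := by
  rw [Matrix.SpecialLinearGroup.diag2n_coe, diagonal_apply_ne _ (by decide)]

theorem triSp_le_closure (hm : 2 ≤ m) : triSp m K (rk m) ≤ Subgroup.closure (triGens m K) := by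
  set o : Fin m := ⟨0, by omega⟩ with ho
  set o1 : Fin m := ⟨1, by omega⟩ with ho1
  have ho01 : o ≠ o1 := by
    intro h; have := congrArg Fin.val h; simp only [ho, ho1] at this; omega
  have key : ∀ k : ℕ, ∀ b ∈ triSp m K (rk m), b.1 (Sum.inl o) (Sum.inl o) = 1 →
      (∀ j : Fin m, k < j.val → b.1 (Sum.inl j) (Sum.inl j) = 1) →
      b ∈ Subgroup.closure (triGens m K) := by
    intro k
    induction k with
    | zero =>
      intro b hb h0 h
      apply Subgroup.subset_closure
      left
      rw [mem_uniSp_rk]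
      have hl : ∀ j : Fin m, b.1 (Sum.inl j) (Sum.inl j) = 1 := by
        intro j
        by_cases hj : 0 < j.val
        · exact h j hj
        · have : j = o := Fin.ext (by simp only [ho]; omega)
          rw [this]; exact h0
      refine ⟨hb, ?_⟩
      rintro (j | j)
      · exact hl j
      · have := tri_diag_inr hb j
        rw [hl j, one_mul] at this
        exact this
    | succ k ih =>
      intro b hb h0 h
      by_cases hk : k + 1 < m
      · set j₀ : Fin m := ⟨k + 1, hk⟩ with hj₀
        have hc : b.1 (Sum.inl j₀) (Sum.inl j₀) ≠ 0 := tri_diag_ne_zero hb _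
        set d : Spn m K := rootHom j₀ (Matrix.SpecialLinearGroup.diag2n
          (zero_ne_one : (0 : Fin 2) ≠ 1) (b.1 (Sum.inl j₀) (Sum.inl j₀))⁻¹ (inv_ne_zero hc))
          with hd
        have hdU : d ∈ triSp m K (rk m) := rootHom_mem_tri j₀ _ (diag2_apply_one_zero _ _)
        have hdG : d ∈ Subgroup.closure (triGens m K) := by
          apply Subgroup.subset_closure
          right; right
          exact ⟨j₀, _, inv_ne_zero hc, by simp only [hj₀]; omega, rfl⟩
        have hdb : d * b ∈ Subgroup.closure (triGens m K) := by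
          apply ih _ (mul_mem hdU hb)
          · rw [tri_mul_diag hdU hb, hd, rootHom_apply_inl, if_neg, one_mul, h0]
            intro h'; have := congrArg Fin.val h'; simp only [ho, hj₀] at this; omega
          · intro j hj
            rw [tri_mul_diag hdU hb, hd, rootHom_apply_inl]
            by_cases hjj : j = j₀
            · rw [if_pos hjj, hjj, diag2_apply_zero, inv_mul_cancel₀ hc]
            · rw [if_neg hjj, one_mul]
              apply h j
              have : j.val ≠ k + 1 := fun h' => hjj (Fin.ext h')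
              omega
        have : b = d⁻¹ * (d * b) := by group
        rw [this]
        exact mul_mem (inv_mem hdG) hdb
      · apply ih b hb h0
        intro j hj
        exfalso
        have := j.2
        omega
  intro b hb
  have hc : b.1 (Sum.inl o) (Sum.inl o) ≠ 0 := tri_diag_ne_zero hb _
  set d : Spn m K := levSL (Matrix.SpecialLinearGroup.diag2n ho01
    (b.1 (Sum.inl o) (Sum.inl o))⁻¹ (inv_ne_zero hc)) with hd
  have hdU : d ∈ triSp m K (rk m) := levSL_mem_tri (diag2n_mem_upperSL ho01 _ _)
  have hdG : d ∈ Subgroup.closure (triGens m K) := by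
    apply Subgroup.subset_closure
    right; left
    exact ⟨o, o1, ho01, _, inv_ne_zero hc, rfl⟩
  have hdb : d * b ∈ Subgroup.closure (triGens m K) := by
    apply key m _ (mul_mem hdU hb)
    · rw [tri_mul_diag hdU hb, hd, levSL_apply_inl, Matrix.SpecialLinearGroup.diag2n_coe,
        diagonal_apply_eq, if_pos rfl, inv_mul_cancel₀ hc]
    · intro j hj
      exfalso
      have := j.2
      omega
  have : b = d⁻¹ * (d * b) := by group
  rw [this]
  exact mul_mem (inv_mem hdG) hdb

end Cfsg.Agent.Lib.Helper86.Spn
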