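import Mathlib
import Cfsg.Prelude.Def_Classical
import Cfsg.Agent.Lib.Helper86.SimpleGen
import Cfsg.Agent.Lib.Helper86.SpGen

set_option autoImplicit false
set_option linter.style.haveILetI false
set_option linter.unusedSectionVars false
set_option linter.dupNamespace false
set_option linter.unusedVariables false

/-! # The `p`-fusion system of `PSp_{2m}(K)` in characteristic `p` is simple -/

namespace Cfsg.Agent.Lib.Helper86.Spn

open Matrix

variable {m : ℕ} {K : Type*} [Field K]

theorem tv_pow {n : ℕ} {i j : Fin n} (hij : i ≠ j) (c : K) (k : ℕ) :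
    (Matrix.SpecialLinearGroup.transvection hij c : Matrix.SpecialLinearGroup (Fin n) K) ^ k
      = Matrix.SpecialLinearGroup.transvection hij (k • c) := by
  induction k with
  | zero => rw [pow_zero, zero_smul, Matrix.SpecialLinearGroup.transvection_coeff_zero]
  | succ k ih =>
    rw [pow_succ, ih, ← Matrix.SpecialLinearGroup.transvection_add, succ_nsmul]

theorem tv_pow_char (p : ℕ) [CharP K p] {n : ℕ} {i j : Fin n} (hij : i ≠ j) (c : K) :
    (Matrix.SpecialLinearGroup.transvection hij c : Matrix.SpecialLinearGroup (Fin n) K) ^ p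
      = 1 := by
  rw [tv_pow, nsmul_eq_mul, CharP.cast_eq_zero, zero_mul,
    Matrix.SpecialLinearGroup.transvection_coeff_zero]

/-- the projection to `PSp_{2m}(K)` -/
abbrev projSp (m : ℕ) (K : Type*) [Field K] : Spn m K →* Cfsg.PSp m K :=
  QuotientGroup.mk' (Subgroup.center (Spn m K))

theorem projSp_surjective : Function.Surjective (projSp m K) :=
  QuotientGroup.mk'_surjective _

theorem projSp_eq_one {z : Spn m K} (hz : z ∈ Subgroup.center (Spn m K)) : projSp m K z = 1 :=
  (QuotientGroup.eq_one_iff z).2 hz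

/-- `p`-elements of `Sp_{2m}(K)` with the same image in `PSp_{2m}(K)` are equal -/
theorem eq_of_projSp_eq (p : ℕ) [Fact p.Prime] [CharP K p] (hm : 1 ≤ m) {x y : Spn m K}
    {a b : ℕ} (hx : x ^ (p ^ a) = 1) (hy : y ^ (p ^ b) = 1)
    (h : projSp m K x = projSp m K y) : x = y := by
  have hz : y⁻¹ * x ∈ Subgroup.center (Spn m K) := QuotientGroup.eq.1 h.symm
  have hc : Commute y (y⁻¹ * x) := (Subgroup.mem_center_iff.1 hz y)
  have h1 : (y * (y⁻¹ * x)) ^ (p ^ (a + b)) = y ^ (p ^ (a + b)) * (y⁻¹ * x) ^ (p ^ (a + b)) :=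
    hc.mul_pow _
  rw [mul_inv_cancel_left] at h1
  have hx' : x ^ (p ^ (a + b)) = 1 := by rw [pow_add, pow_mul, hx, one_pow]
  have hy' : y ^ (p ^ (a + b)) = 1 := by rw [pow_add, mul_comm, pow_mul, hy, one_pow]
  rw [hx', hy', one_mul] at h1
  have h2 := center_pfree p hm hz (a + b) h1.symm
  exact (inv_mul_eq_one.1 h2).symm

theorem conj_pow_one {u g : Spn m K} {k : ℕ} (hu : u ^ k = 1) : (g * u * g⁻¹) ^ k = 1 := by
  rw [conj_pow, hu, mul_one, mul_inv_cancel]

/-- lifting normalizers of unipotent subgroups -/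
theorem conj_mem_of_projSp_mem_normalizer (p : ℕ) [Fact p.Prime] [CharP K p] (hm : 1 ≤ m)
    {A : Subgroup (Spn m K)} (hA : A ≤ uniSp m K (rk m)) {g : Spn m K}
    (hg : projSp m K g ∈ Subgroup.normalizer
      ((A.map (projSp m K) : Subgroup (Cfsg.PSp m K)) : Set (Cfsg.PSp m K)))
    {u : Spn m K} (hu : u ∈ A) : g * u * g⁻¹ ∈ A := by
  have h1 : projSp m K (g * u * g⁻¹) ∈ A.map (projSp m K) := by
    rw [map_mul, map_mul, map_inv]
    exact (Subgroup.mem_normalizer_iff.1 hg _).1 (Subgroup.mem_map_of_mem _ hu)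
  obtain ⟨u', hu', hu'eq⟩ := Subgroup.mem_map.1 h1
  have := eq_of_projSp_eq p hm (uni_pow_eq_one p (hA hu')) (conj_pow_one (g := g)
    (uni_pow_eq_one p (hA hu))) hu'eq
  rw [← this]
  exact hu'

/-- lifting centralizers of unipotent subgroups -/
theorem commute_of_projSp_mem_centralizer (p : ℕ) [Fact p.Prime] [CharP K p] (hm : 1 ≤ m)
    {A : Subgroup (Spn m K)} (hA : A ≤ uniSp m K (rk m)) {g : Spn m K}
    (hg : projSp m K g ∈ Subgroup.centralizer
      ((A.map (projSp m K) : Subgroup (Cfsg.PSp m K)) : Set (Cfsg.PSp m K)))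
    {a : Spn m K} (ha : a ∈ A) : g * a = a * g := by
  have h1 : projSp m K (g * a * g⁻¹) = projSp m K a := by
    rw [map_mul, map_mul, map_inv]
    have := Subgroup.mem_centralizer_iff.1 hg (projSp m K a) (Subgroup.mem_map_of_mem _ ha)
    rw [← this, mul_inv_cancel_right]
  have := eq_of_projSp_eq p hm (conj_pow_one (g := g) (uni_pow_eq_one p (hA ha)))
    (uni_pow_eq_one p (hA ha)) h1
  rw [mul_inv_eq_iff_eq_mul] at this
  exact this

theorem projSp_tri_le_normalizer (β : Idx m → ℕ) :
    (triSp m K β).map (projSp m K) ≤ Subgroup.normalizer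
      (((uniSp m K β).map (projSp m K) : Subgroup (Cfsg.PSp m K)) : Set (Cfsg.PSp m K)) :=
  (Subgroup.map_mono (triSp_le_normalizer β)).trans (Subgroup.le_normalizer_map _)

theorem centralizer_projSp (p : ℕ) [Fact p.Prime] [CharP K p] (hm : 1 ≤ m) {β : Idx m → ℕ}
    (hmono : ∀ x y, rk m y < rk m x → β y ≤ β x)
    (hcent : ∀ g : Spn m K, (∀ a ∈ uniSp m K β, g * a = a * g) →
      ∃ z ∈ Subgroup.center (Spn m K), z * g ∈ uniSp m K β) :
    Subgroup.centralizer
      (((uniSp m K β).map (projSp m K) : Subgroup (Cfsg.PSp m K)) : Set (Cfsg.PSp m K))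
        ≤ (uniSp m K β).map (projSp m K) := by
  intro x hx
  obtain ⟨g, rfl⟩ := projSp_surjective (m := m) (K := K) x
  obtain ⟨z, hz, hzg⟩ := hcent g
    (fun a ha => commute_of_projSp_mem_centralizer p hm (uniSp_le_rk hmono) hx ha)
  refine Subgroup.mem_map.2 ⟨z * g, hzg, ?_⟩
  rw [map_mul, projSp_eq_one hz, one_mul]

theorem orderOf_projSp_of_pow (p : ℕ) [Fact p.Prime] {t : Spn m K} {a : ℕ}
    (ht : t ^ (p ^ a) = 1) : ∃ k : ℕ, orderOf (projSp m K t) = p ^ k := by
  have h : (projSp m K t) ^ (p ^ a) = 1 := by rw [← map_pow, ht, map_one]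
  obtain ⟨k, -, hk⟩ := (Nat.dvd_prime_pow Fact.out).1 (orderOf_dvd_of_pow_eq_one h)
  exact ⟨k, hk⟩

/-- the image of the unitriangular group is a Sylow `p`-subgroup of `PSp_{2m}(K)` -/
noncomputable def pspSylow [Fintype K] (p : ℕ) [Fact p.Prime] [CharP K p] :
    Sylow p (Cfsg.PSp m K) :=
  ((uniSp_isPGroup (m := m) (K := K) p).map (projSp m K)).toSylow
    (fun h => not_dvd_index_uniSp (m := m) (K := K) p
      (h.trans (Subgroup.index_map_dvd _ projSp_surjective)))

theorem coe_pspSylow [Fintype K] (p : ℕ) [Fact p.Prime] [CharP K p] :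
    ((pspSylow p : Sylow p (Cfsg.PSp m K)) : Subgroup (Cfsg.PSp m K))
      = (uniSp m K (rk m)).map (projSp m K) :=
  rfl

/-- the `p`-fusion system of `PSp_{2m}(K)`, `m ≥ 2`, `K` finite of characteristic `p`,
`(m, |K|) ≠ (2, 2)`, is simple -/
theorem psp_fusion_simple [Fintype K] (p : ℕ) [Fact p.Prime] [CharP K p] (hm : 2 ≤ m)
    (hex : m = 2 → 3 ≤ Fintype.card K) (S : Sylow p (Cfsg.PSp m K)) :
    (Cfsg.groupFusionSystem (S : Subgroup (Cfsg.PSp m K))).IsSimple p := by
  have hm1 : 1 ≤ m := by omega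
  apply isSimple_of_sylow_gens p (pspSylow p) ?_ ?_ ?_ S
  · -- the Sylow subgroup is nontrivial
    intro hbot
    rw [coe_pspSylow] at hbot
    obtain ⟨o, ho⟩ : ∃ o : Fin m, o.val = 0 := ⟨⟨0, by omega⟩, rfl⟩
    have ht := rS_mem_uni (K := K) (Matrix.single o o 1) (Matrix.transpose_single o o 1)
    have h1 : projSp m K (rS (Matrix.single o o (1 : K)) (Matrix.transpose_single o o 1)) = 1 := by
      have := Subgroup.mem_map_of_mem (projSp m K) ht
      rw [hbot, Subgroup.mem_bot] at this
      exact this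
    have h2 := (QuotientGroup.eq_one_iff _).1 h1
    have h3 := center_pfree p hm1 h2 (2 * m) (uni_pow_eq_one p ht)
    have h4 := congrArg (fun M : Spn m K => M.1 (Sum.inl o) (Sum.inr o)) h3
    simp only [rS_coe, sp_coe_one, fromBlocks_apply₁₂, Matrix.single_apply_same] at h4
    rw [Matrix.one_apply_ne (by simp)] at h4
    exact one_ne_zero h4
  · -- strongly closed subgroups
    intro T hTP hT hcl
    rw [coe_pspSylow] at hTP hcl ⊢
    have h1 : uniSp m K (rk m) ⊓ T.comap (projSp m K) = uniSp m K (rk m) := by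
      refine eq_uniSp_of_closed _ ?_ p hm hex inf_le_left ?_
      · intro x hx g hgx
        refine ⟨hgx, ?_⟩
        show projSp m K (g * x * g⁻¹) ∈ T
        rw [map_mul, map_mul, map_inv]
        apply hcl _ hx.2
        rw [← map_inv, ← map_mul, ← map_mul]
        exact Subgroup.mem_map_of_mem _ hgx
      · intro hbot
        obtain ⟨⟨x, hxT⟩, hx1⟩ := Subgroup.ne_bot_iff_exists_ne_one.1 hT
        obtain ⟨u, hu, hux⟩ := Subgroup.mem_map.1 (hTP hxT)
        have huT' : u ∈ uniSp m K (rk m) ⊓ T.comap (projSp m K) :=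
          ⟨hu, by show projSp m K u ∈ T; rw [hux]; exact hxT⟩
        rw [hbot, Subgroup.mem_bot] at huT'
        apply hx1
        apply Subtype.ext
        show x = 1
        rw [← hux, huT', map_one]
    apply le_antisymm hTP
    rw [Subgroup.map_le_iff_le_comap, ← h1]
    exact inf_le_right
  · -- generation of the normalizer
    intro x hx
    rw [coe_pspSylow] at hx ⊢
    obtain ⟨g, rfl⟩ := projSp_surjective (m := m) (K := K) x
    have hgU : g ∈ triSp m K (rk m) := by
      apply mem_triSp_of_conj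
      intro u hu
      have hx' : projSp m K g⁻¹ ∈ Subgroup.normalizer
          (((uniSp m K (rk m)).map (projSp m K) : Subgroup (Cfsg.PSp m K)) :
            Set (Cfsg.PSp m K)) := by
        rw [map_inv]; exact inv_mem hx
      have := conj_mem_of_projSp_mem_normalizer p hm1 le_rfl hx' hu
      rwa [inv_inv] at this
    have hg := triSp_le_closure hm hgU
    have h1 : projSp m K g ∈ (Subgroup.closure (triGens m K)).map (projSp m K) :=
      Subgroup.mem_map_of_mem _ hg
    rw [MonoidHom.map_closure] at h1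
    refine Subgroup.closure_mono ?_ h1
    have hUS : (uniSp m K (rk m)).map (projSp m K) ≤ Subgroup.normalizer
        (((uniSp m K (bS m)).map (projSp m K) : Subgroup (Cfsg.PSp m K)) :
          Set (Cfsg.PSp m K)) :=
      (Subgroup.map_mono ((uniSp_le_triSp (rk m)).trans (triSp_rk_le bS_mono))).trans
        (projSp_tri_le_normalizer (bS m))
    have hUH : (uniSp m K (rk m)).map (projSp m K) ≤ Subgroup.normalizer
        (((uniSp m K (bH m)).map (projSp m K) : Subgroup (Cfsg.PSp m K)) :
          Set (Cfsg.PSp m K)) :=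
      (Subgroup.map_mono ((uniSp_le_triSp (rk m)).trans (triSp_rk_le bH_mono))).trans
        (projSp_tri_le_normalizer (bH m))
    have hCS := centralizer_projSp (m := m) (K := K) p hm1 bS_mono
      (fun g hg => centralizer_bS hm1 hg)
    have hCH := centralizer_projSp (m := m) (K := K) p hm1 bH_mono
      (fun g hg => centralizer_bH hm1 hg)
    rintro _ ⟨d, hd, rfl⟩
    rcases hd with hd | ⟨i, j, hij, c, hc, rfl⟩ | ⟨i, c, hc, hi, rfl⟩
    · -- unipotent elements
      refine ⟨Subgroup.le_normalizer (Subgroup.mem_map_of_mem _ hd),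
        (uniSp m K (bS m)).map (projSp m K), Subgroup.map_mono (uniSp_le_rk bS_mono), hUS,
        hCS, ?_⟩
      apply Subgroup.subset_closure
      exact ⟨hUS (Subgroup.mem_map_of_mem _ hd), orderOf_projSp_of_pow p (uni_pow_eq_one p hd)⟩
    · -- torus elements of the Levi subgroup
      have hdN : projSp m K (levSL (Matrix.SpecialLinearGroup.diag2n hij c hc)) ∈
          Subgroup.normalizer
            (((uniSp m K (rk m)).map (projSp m K) : Subgroup (Cfsg.PSp m K)) :
              Set (Cfsg.PSp m K)) := by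
        apply Subgroup.le_normalizer_map
        apply Subgroup.mem_map_of_mem
        exact triSp_le_normalizer (rk m) (levSL_mem_tri (SLn.diag2n_mem_upperSL hij c hc))
      refine ⟨hdN, (uniSp m K (bS m)).map (projSp m K), Subgroup.map_mono (uniSp_le_rk bS_mono),
        hUS, hCS, ?_⟩
      have ht : ∀ (a b : Fin m) (hab : a ≠ b) (e : K),
          projSp m K (levSL (Matrix.SpecialLinearGroup.transvection hab e)) ∈
            Subgroup.closure (pElts p ((uniSp m K (bS m)).map (projSp m K))) := by
        intro a b hab e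
        apply Subgroup.subset_closure
        exact ⟨projSp_tri_le_normalizer (bS m) (Subgroup.mem_map_of_mem _
            (lev_mem_bS (Matrix.SpecialLinearGroup.toGL
              (Matrix.SpecialLinearGroup.transvection hab e)))),
          orderOf_projSp_of_pow p (a := 1) (by
            rw [pow_one, ← map_pow, tv_pow_char p hab e, map_one])⟩
      rw [Cfsg.Agent.Lib.Helper5.diag2n_decompose hij c hc]
      simp only [map_mul]
      exact mul_mem (ht i j hij _) (mul_mem (ht j i hij.symm _) (mul_mem (ht i j hij _)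
        (mul_mem (ht i j hij _) (mul_mem (ht j i hij.symm _) (ht i j hij _)))))
    · -- torus elements of the long root `SL_2`
      have hdN : projSp m K (rootHom i (Matrix.SpecialLinearGroup.diag2n
          (zero_ne_one : (0 : Fin 2) ≠ 1) c hc)) ∈
          Subgroup.normalizer
            (((uniSp m K (rk m)).map (projSp m K) : Subgroup (Cfsg.PSp m K)) :
              Set (Cfsg.PSp m K)) := by
        apply Subgroup.le_normalizer_map
        apply Subgroup.mem_map_of_mem
        exact triSp_le_normalizer (rk m) (rootHom_mem_tri i _ (diag2_apply_one_zero c hc))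
      refine ⟨hdN, (uniSp m K (bH m)).map (projSp m K), Subgroup.map_mono (uniSp_le_rk bH_mono),
        hUH, hCH, ?_⟩
      have ht : ∀ (a b : Fin 2) (hab : a ≠ b) (e : K),
          projSp m K (rootHom i (Matrix.SpecialLinearGroup.transvection hab e)) ∈
            Subgroup.closure (pElts p ((uniSp m K (bH m)).map (projSp m K))) := by
        intro a b hab e
        apply Subgroup.subset_closure
        exact ⟨projSp_tri_le_normalizer (bH m) (Subgroup.mem_map_of_mem _
            (rootHom_mem_bH i hi _)),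
          orderOf_projSp_of_pow p (a := 1) (by
            rw [pow_one, ← map_pow, tv_pow_char p hab e, map_one])⟩
      rw [Cfsg.Agent.Lib.Helper5.diag2n_decompose (zero_ne_one : (0 : Fin 2) ≠ 1) c hc]
      simp only [map_mul]
      exact mul_mem (ht _ _ _ _) (mul_mem (ht _ _ _ _) (mul_mem (ht _ _ _ _)
        (mul_mem (ht _ _ _ _) (mul_mem (ht _ _ _ _) (ht _ _ _ _)))))

end Cfsg.Agent.Lib.Helper86.Spn
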